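import Mathlib
import Cfsg.Agent.Lib.Helper43.SUBase
import Cfsg.Agent.H84.PslDefs

set_option autoImplicit false

/-!
# Shared definitions for S5172 (defining-characteristic fusion system of `PSU_n(q)`, `n ≥ 4`)

The "J-model": the special unitary group of the hermitian form with ANTIDIAGONAL Gram matrix,
`h(x, y) = ∑ i, x i * φ (y (rev i))`, as a subgroup `GJ D n` of `SL_n(K)`; `D : QD K q`
(helper43) carries the involution `D.φ x = x ^ q`.  In this model the upper unitriangular
matrices `UJ D n = GJ D n ⊓ Uni n K` form a Sylow `p`-subgroup.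

* `adjJ D n M i j = D.φ (M (rev j) (rev i))`: the adjoint; `adjJ_mul`, `adjJ_one`, `adjJ_adjJ`,
  `adjJ_add`, `adjJ_sub`, `adjJ_neg`, `adjJ_smul`.
* `g ∈ GJ D n ↔ adjJ D n ↑g * ↑g = 1` (`mem_GJ`), then also `↑g * adjJ D n ↑g = 1` and
  `↑(g⁻¹) = adjJ D n ↑g` (`coe_inv_of_mem`).
* `UJ`, `QW` (radical of the stabiliser of the maximal isotropic subspace `⟨e_0..e_(m-1)⟩`,
  `m = n / 2`), `Q1` (radical of the stabiliser of the isotropic point `⟨e_0⟩`): `GJ` intersected
  with the level subgroups `sub n K lam` of helper84's `PslDefs` (`lamU`, `lamW`, `lam1`).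
* `Corner`, `Diag`, `Upper`, `TopRight`, `IsRoot`: entry conditions used in the piece statements.
-/

namespace Cfsg.Agent.Lib.Helper46.PsuDefs

open Matrix Cfsg.Agent.Lib.Helper43.SUBase Cfsg.Agent.H84.PslDefs

variable {K : Type*} [Field K] {q : ℕ} (D : QD K q) (n : ℕ)

/-- the adjoint of a matrix for the antidiagonal hermitian form -/
def adjJ (M : Matrix (Fin n) (Fin n) K) : Matrix (Fin n) (Fin n) K :=
  Matrix.of fun i j => D.φ (M (Fin.rev j) (Fin.rev i))

@[simp] theorem adjJ_apply (M : Matrix (Fin n) (Fin n) K) (i j : Fin n) :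
    adjJ D n M i j = D.φ (M (Fin.rev j) (Fin.rev i)) := rfl

theorem adjJ_mul (A B : Matrix (Fin n) (Fin n) K) :
    adjJ D n (A * B) = adjJ D n B * adjJ D n A := by
  ext i j
  simp only [adjJ_apply, Matrix.mul_apply, map_sum, map_mul]
  rw [← Equiv.sum_comp Fin.revPerm]
  apply Finset.sum_congr rfl
  intro k _
  simp [Fin.revPerm_apply, mul_comm]

theorem adjJ_one : adjJ D n (1 : Matrix (Fin n) (Fin n) K) = 1 := by
  ext i j
  simp only [adjJ_apply, Matrix.one_apply, Fin.rev_inj]
  by_cases h : i = j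
  · subst h; simp
  · rw [if_neg (fun h' => h h'.symm), if_neg h, map_zero]

theorem adjJ_adjJ (A : Matrix (Fin n) (Fin n) K) : adjJ D n (adjJ D n A) = A := by
  ext i j
  simp [D.inv]

theorem adjJ_add (A B : Matrix (Fin n) (Fin n) K) :
    adjJ D n (A + B) = adjJ D n A + adjJ D n B := by
  ext i j; simp

theorem adjJ_sub (A B : Matrix (Fin n) (Fin n) K) :
    adjJ D n (A - B) = adjJ D n A - adjJ D n B := by
  ext i j; simp

theorem adjJ_neg (A : Matrix (Fin n) (Fin n) K) : adjJ D n (-A) = -adjJ D n A := by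
  ext i j; simp

theorem adjJ_zero : adjJ D n (0 : Matrix (Fin n) (Fin n) K) = 0 := by
  ext i j; simp

theorem adjJ_smul (c : K) (A : Matrix (Fin n) (Fin n) K) :
    adjJ D n (c • A) = D.φ c • adjJ D n A := by
  ext i j; simp

theorem adjJ_injective : Function.Injective (adjJ D n) := by
  intro A B h
  rw [← adjJ_adjJ D n A, h, adjJ_adjJ]

/-- the special unitary group of the antidiagonal hermitian form, inside `SL_n(K)` -/
def GJ : Subgroup (SpecialLinearGroup (Fin n) K) where
  carrier := {g | adjJ D n (g : Matrix (Fin n) (Fin n) K) * (g : Matrix (Fin n) (Fin n) K) = 1}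
  mul_mem' := by
    intro a b ha hb
    show adjJ D n ((a * b : SpecialLinearGroup (Fin n) K) : Matrix (Fin n) (Fin n) K) *
      ((a * b : SpecialLinearGroup (Fin n) K) : Matrix (Fin n) (Fin n) K) = 1
    rw [Matrix.SpecialLinearGroup.coe_mul, adjJ_mul, Matrix.mul_assoc,
      ← Matrix.mul_assoc (adjJ D n (a : Matrix (Fin n) (Fin n) K)), ha, Matrix.one_mul, hb]
  one_mem' := by
    show adjJ D n ((1 : SpecialLinearGroup (Fin n) K) : Matrix (Fin n) (Fin n) K) *
      ((1 : SpecialLinearGroup (Fin n) K) : Matrix (Fin n) (Fin n) K) = 1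
    rw [Matrix.SpecialLinearGroup.coe_one, adjJ_one, Matrix.one_mul]
  inv_mem' := by
    intro a ha
    have ha' : adjJ D n (a : Matrix (Fin n) (Fin n) K) * (a : Matrix (Fin n) (Fin n) K) = 1 := ha
    have h1 : ((a⁻¹ : SpecialLinearGroup (Fin n) K) : Matrix (Fin n) (Fin n) K) *
        (a : Matrix (Fin n) (Fin n) K) = 1 := by
      rw [← Matrix.SpecialLinearGroup.coe_mul, inv_mul_cancel, Matrix.SpecialLinearGroup.coe_one]
    have h2 : (a : Matrix (Fin n) (Fin n) K) *
        ((a⁻¹ : SpecialLinearGroup (Fin n) K) : Matrix (Fin n) (Fin n) K) = 1 := by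
      rw [← Matrix.SpecialLinearGroup.coe_mul, mul_inv_cancel, Matrix.SpecialLinearGroup.coe_one]
    have h3 : ((a⁻¹ : SpecialLinearGroup (Fin n) K) : Matrix (Fin n) (Fin n) K) =
        adjJ D n (a : Matrix (Fin n) (Fin n) K) := by
      calc ((a⁻¹ : SpecialLinearGroup (Fin n) K) : Matrix (Fin n) (Fin n) K)
          = (adjJ D n (a : Matrix (Fin n) (Fin n) K) * (a : Matrix (Fin n) (Fin n) K)) *
              ((a⁻¹ : SpecialLinearGroup (Fin n) K) : Matrix (Fin n) (Fin n) K) := by
            rw [ha', Matrix.one_mul]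
        _ = adjJ D n (a : Matrix (Fin n) (Fin n) K) := by
            rw [Matrix.mul_assoc, h2, Matrix.mul_one]
    show adjJ D n ((a⁻¹ : SpecialLinearGroup (Fin n) K) : Matrix (Fin n) (Fin n) K) *
      ((a⁻¹ : SpecialLinearGroup (Fin n) K) : Matrix (Fin n) (Fin n) K) = 1
    rw [h3, adjJ_adjJ]
    rw [← h3]
    exact h2

theorem mem_GJ (g : SpecialLinearGroup (Fin n) K) :
    g ∈ GJ D n ↔ adjJ D n (g : Matrix (Fin n) (Fin n) K) * (g : Matrix (Fin n) (Fin n) K) = 1 :=
  Iff.rfl

theorem coe_inv_of_mem {g : SpecialLinearGroup (Fin n) K} (hg : g ∈ GJ D n) :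
    ((g⁻¹ : SpecialLinearGroup (Fin n) K) : Matrix (Fin n) (Fin n) K) =
      adjJ D n (g : Matrix (Fin n) (Fin n) K) := by
  have ha' : adjJ D n (g : Matrix (Fin n) (Fin n) K) * (g : Matrix (Fin n) (Fin n) K) = 1 := hg
  have h2 : (g : Matrix (Fin n) (Fin n) K) *
      ((g⁻¹ : SpecialLinearGroup (Fin n) K) : Matrix (Fin n) (Fin n) K) = 1 := by
    rw [← Matrix.SpecialLinearGroup.coe_mul, mul_inv_cancel, Matrix.SpecialLinearGroup.coe_one]
  calc ((g⁻¹ : SpecialLinearGroup (Fin n) K) : Matrix (Fin n) (Fin n) K)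
      = (adjJ D n (g : Matrix (Fin n) (Fin n) K) * (g : Matrix (Fin n) (Fin n) K)) *
          ((g⁻¹ : SpecialLinearGroup (Fin n) K) : Matrix (Fin n) (Fin n) K) := by
        rw [ha', Matrix.one_mul]
    _ = adjJ D n (g : Matrix (Fin n) (Fin n) K) := by
        rw [Matrix.mul_assoc, h2, Matrix.mul_one]

theorem mul_adjJ_of_mem {g : SpecialLinearGroup (Fin n) K} (hg : g ∈ GJ D n) :
    (g : Matrix (Fin n) (Fin n) K) * adjJ D n (g : Matrix (Fin n) (Fin n) K) = 1 := by
  rw [← coe_inv_of_mem D n hg, ← Matrix.SpecialLinearGroup.coe_mul, mul_inv_cancel,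
    Matrix.SpecialLinearGroup.coe_one]

/-- entrywise form of membership: the columns of `g` form a basis with antidiagonal Gram matrix -/
theorem mem_GJ_iff_entries (g : SpecialLinearGroup (Fin n) K) :
    g ∈ GJ D n ↔ ∀ i j : Fin n,
      ∑ k : Fin n, D.φ (g (Fin.rev k) (Fin.rev i)) * g k j = if i = j then 1 else 0 := by
  rw [mem_GJ]
  constructor
  · intro h i j
    have := congrFun (congrFun h i) j
    simpa [Matrix.mul_apply, Matrix.one_apply] using this
  · intro h
    ext i j
    simpa [Matrix.mul_apply, Matrix.one_apply] using h i j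

/-- level function of `QW`: top block `i < n / 2`, middle, bottom block `n - n / 2 ≤ i` -/
def lamW : Fin n → ℤ := fun i => if i.val < n / 2 then 2 else if i.val < n - n / 2 then 1 else 0

/-- level function of `Q1`: index `0`, the middle indices, index `n - 1` -/
def lam1 : Fin n → ℤ := fun i => if i.val = 0 then 2 else if i.val + 1 = n then 0 else 1

/-- upper unitriangular unitary matrices: a Sylow `p`-subgroup of `GJ` -/
def UJ : Subgroup (SpecialLinearGroup (Fin n) K) := GJ D n ⊓ Uni n K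

/-- unipotent radical of the stabiliser of the maximal totally isotropic subspace
`⟨e_0, …, e_(n/2-1)⟩`: identity diagonal blocks for the block sizes `n/2, n - 2(n/2), n/2` -/
def QW : Subgroup (SpecialLinearGroup (Fin n) K) := GJ D n ⊓ sub n K (lamW n)

/-- unipotent radical of the stabiliser of the isotropic point `⟨e_0⟩`: nonzero off-diagonal
entries only in row `0` and in column `n - 1` -/
def Q1 : Subgroup (SpecialLinearGroup (Fin n) K) := GJ D n ⊓ sub n K (lam1 n)

theorem mem_UJ (g : SpecialLinearGroup (Fin n) K) :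
    g ∈ UJ D n ↔ g ∈ GJ D n ∧ (∀ i j : Fin n, j < i → g i j = 0) ∧ ∀ i, g i i = 1 := by
  rw [UJ, Subgroup.mem_inf, mem_Uni]

theorem mem_QW (g : SpecialLinearGroup (Fin n) K) :
    g ∈ QW D n ↔ g ∈ GJ D n ∧
      (∀ i j : Fin n, i ≠ j → ¬ (i.val < n / 2 ∧ n / 2 ≤ j.val) →
        ¬ (i.val < n - n / 2 ∧ n - n / 2 ≤ j.val) → g i j = 0) ∧ ∀ i, g i i = 1 := by
  rw [QW, Subgroup.mem_inf, mem_sub]
  refine and_congr Iff.rfl (and_congr ⟨fun h i j hne h1 h2 => h i j hne ?_,
    fun h i j hne hle => h i j hne ?_ ?_⟩ Iff.rfl)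
  · simp only [lamW]
    split_ifs <;> omega
  · intro h1
    simp only [lamW] at hle
    split_ifs at hle <;> omega
  · intro h1
    simp only [lamW] at hle
    split_ifs at hle <;> omega

theorem mem_Q1 (g : SpecialLinearGroup (Fin n) K) :
    g ∈ Q1 D n ↔ g ∈ GJ D n ∧
      (∀ i j : Fin n, i ≠ j → i.val ≠ 0 → j.val + 1 ≠ n → g i j = 0) ∧ ∀ i, g i i = 1 := by
  rw [Q1, Subgroup.mem_inf, mem_sub]
  refine and_congr Iff.rfl (and_congr ⟨fun h i j hne h1 h2 => h i j hne ?_,
    fun h i j hne hle => ?_⟩ Iff.rfl)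
  · simp only [lam1, if_neg h1, if_neg h2]
    split_ifs <;> omega
  · by_cases h1 : i.val = 0
    · have hj : j.val ≠ 0 := fun hj => hne (Fin.ext (h1.trans hj.symm))
      simp only [lam1, if_pos h1, if_neg hj] at hle
      split_ifs at hle <;> omega
    · by_cases h2 : j.val + 1 = n
      · have hi : i.val + 1 ≠ n := fun hi => hne (Fin.ext (by omega))
        simp only [lam1, if_neg h1, if_neg hi, if_pos h2] at hle
        have hj0 : j.val ≠ 0 := by
          intro hj0
          have := i.isLt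
          omega
        rw [if_neg hj0] at hle
        omega
      · exact h i j hne h1 h2

theorem QW_le_UJ : QW D n ≤ UJ D n := by
  intro g hg
  rw [mem_QW] at hg
  rw [mem_UJ]
  refine ⟨hg.1, fun i j hji => hg.2.1 i j (ne_of_gt hji) ?_ ?_, hg.2.2⟩
  · have : j.val < i.val := hji
    omega
  · have : j.val < i.val := hji
    omega

theorem Q1_le_UJ : Q1 D n ≤ UJ D n := by
  intro g hg
  rw [mem_Q1] at hg
  rw [mem_UJ]
  refine ⟨hg.1, fun i j hji => hg.2.1 i j (ne_of_gt hji) ?_ ?_, hg.2.2⟩
  · have : j.val < i.val := hji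
    omega
  · have : j.val < i.val := hji
    have := i.isLt
    omega

theorem UJ_le_GJ : UJ D n ≤ GJ D n := inf_le_left

/-- only the corner entry `(0, n - 1)` may be nonzero off the diagonal -/
def Corner (g : SpecialLinearGroup (Fin n) K) : Prop :=
  ∀ i j : Fin n, i ≠ j → ¬ (i.val = 0 ∧ j.val + 1 = n) → g i j = 0

/-- diagonal matrix -/
def Diag (g : SpecialLinearGroup (Fin n) K) : Prop := ∀ i j : Fin n, i ≠ j → g i j = 0

/-- upper triangular matrix -/
def Upper (g : SpecialLinearGroup (Fin n) K) : Prop := ∀ i j : Fin n, j < i → g i j = 0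

/-- off-diagonal entries only in the top right block (rows `< n/2`, columns `≥ n - n/2`) -/
def TopRight (g : SpecialLinearGroup (Fin n) K) : Prop :=
  ∀ k l : Fin n, k ≠ l → g k l ≠ 0 → k.val < n / 2 ∧ n - n / 2 ≤ l.val

/-- root-type element of `UJ` attached to the pair `i < j`: off-diagonal entries only at
`(i, j)`, at the mirror position `(rev j, rev i)` and at `(i, rev i)` -/
def IsRoot (i j : Fin n) (g : SpecialLinearGroup (Fin n) K) : Prop :=
  g ∈ UJ D n ∧ ∀ k l : Fin n, k ≠ l → g k l ≠ 0 →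
    (k = i ∧ l = j) ∨ (k = Fin.rev j ∧ l = Fin.rev i) ∨ (k = i ∧ l = Fin.rev i)

/-- the set of root-type elements of `UJ` -/
def RootSet : Set (SpecialLinearGroup (Fin n) K) :=
  {g | ∃ i j : Fin n, i < j ∧ IsRoot D n i j g}


/-! ### the second radical `RC`, explicit root matrices, torus shapes, the projective group -/

theorem adjJ_single (i j : Fin n) (a : K) :
    adjJ D n (Matrix.single i j a) = Matrix.single (Fin.rev j) (Fin.rev i) (D.φ a) := by
  ext k l
  simp only [adjJ_apply, Matrix.single_apply]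
  by_cases h : i = Fin.rev l ∧ j = Fin.rev k
  · have h' : Fin.rev j = k ∧ Fin.rev i = l := ⟨by rw [h.2, Fin.rev_rev], by rw [h.1, Fin.rev_rev]⟩
    rw [if_pos h, if_pos h']
  · have h' : ¬ (Fin.rev j = k ∧ Fin.rev i = l) := by
      rintro ⟨h1, h2⟩
      exact h ⟨by rw [← h2, Fin.rev_rev], by rw [← h1, Fin.rev_rev]⟩
    rw [if_neg h, if_neg h', map_zero]

/-- level function of `RC`: strictly decreasing, except constant on the central block
`n / 2 - 1 ≤ i ≤ n - n / 2` -/
def lamC : Fin n → ℤ := fun i =>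
  if i.val + 1 < n / 2 then -(i.val : ℤ) else if i.val ≤ n - n / 2 then -((n / 2 : ℕ) : ℤ) + 1
  else -(i.val : ℤ)

/-- unipotent radical of the minimal parabolic of the central block: the elements of `UJ` whose
entries `(i, j)`, `i < j`, with both `i, j` in the central block `n/2 - 1 ≤ · ≤ n - n/2`
vanish -/
def RC : Subgroup (SpecialLinearGroup (Fin n) K) := GJ D n ⊓ sub n K (lamC n)

theorem lamW_antitone (i j : Fin n) (h : i ≤ j) : lamW n j ≤ lamW n i := by
  have : i.val ≤ j.val := h
  simp only [lamW]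
  split_ifs <;> omega

theorem lamC_antitone (i j : Fin n) (h : i ≤ j) : lamC n j ≤ lamC n i := by
  have : i.val ≤ j.val := h
  have := j.isLt
  simp only [lamC]
  split_ifs <;> omega

theorem mem_RC (g : SpecialLinearGroup (Fin n) K) :
    g ∈ RC D n ↔ g ∈ UJ D n ∧
      ∀ i j : Fin n, i < j → n / 2 ≤ i.val + 1 → j.val ≤ n - n / 2 → g i j = 0 := by
  rw [RC, Subgroup.mem_inf, mem_sub, mem_UJ]
  constructor
  · rintro ⟨hG, h1, h2⟩
    refine ⟨⟨hG, fun i j hji => h1 i j (ne_of_gt hji) (lamC_antitone n j i (le_of_lt hji)), h2⟩,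
      fun i j hij hi hj => h1 i j (ne_of_lt hij) ?_⟩
    have : i.val < j.val := hij
    simp only [lamC]
    split_ifs <;> omega
  · rintro ⟨⟨hG, h1, h2⟩, h3⟩
    refine ⟨hG, fun i j hne hle => ?_, h2⟩
    rcases lt_or_gt_of_ne hne with hij | hji
    · have hv : i.val < j.val := hij
      have := j.isLt
      refine h3 i j hij ?_ ?_
      · by_contra hc
        simp only [lamC] at hle
        split_ifs at hle <;> omega
      · by_contra hc
        simp only [lamC] at hle
        split_ifs at hle <;> omega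
    · exact h1 i j hji

theorem RC_le_UJ : RC D n ≤ UJ D n := fun g hg => ((mem_RC D n g).1 hg).1

/-- matrix of a long root element: `1 + c E_{i, rev i}` (unitary iff `φ c = -c`) -/
def longM (i : Fin n) (c : K) : Matrix (Fin n) (Fin n) K := 1 + Matrix.single i (Fin.rev i) c

/-- matrix of a short root element: `1 + a E_{i j} - φ a E_{rev j, rev i}` (unitary when
`i ≠ rev i`, `j ≠ rev j`) -/
def shortM (i j : Fin n) (a : K) : Matrix (Fin n) (Fin n) K :=
  1 + Matrix.single i j a - Matrix.single (Fin.rev j) (Fin.rev i) (D.φ a)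

/-- matrix of a root element through the middle index `j = rev j` (`n` odd):
`1 + a E_{i j} - φ a E_{j, rev i} + b E_{i, rev i}` (unitary iff `b + φ b + a * φ a = 0`) -/
def midM (i j : Fin n) (a b : K) : Matrix (Fin n) (Fin n) K :=
  1 + Matrix.single i j a - Matrix.single j (Fin.rev i) (D.φ a) + Matrix.single i (Fin.rev i) b

/-- long root elements (positions `(i, rev i)`, `i < rev i`) -/
def IsLong (g : SpecialLinearGroup (Fin n) K) : Prop :=
  ∃ (i : Fin n) (c : K), i < Fin.rev i ∧ (g : Matrix (Fin n) (Fin n) K) = longM n i c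

/-- short root elements (positions `(i, j)` and `(rev j, rev i)`, `i < j < rev i`, `j ≠ rev j`) -/
def IsShort (g : SpecialLinearGroup (Fin n) K) : Prop :=
  ∃ (i j : Fin n) (a : K), i < j ∧ j < Fin.rev i ∧ j ≠ Fin.rev j ∧
    (g : Matrix (Fin n) (Fin n) K) = shortM D n i j a

/-- root elements through the middle index -/
def IsMid (g : SpecialLinearGroup (Fin n) K) : Prop :=
  ∃ (i j : Fin n) (a b : K), i < j ∧ j = Fin.rev j ∧
    (g : Matrix (Fin n) (Fin n) K) = midM D n i j a b

/-- shape of the torus elements `diag(.., β, .., β⁻¹, .., φ β, .., (φ β)⁻¹, ..)` of the Levi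
factor `SL_(n/2)` of the stabiliser of the maximal isotropic subspace -/
def IsTorH (h : SpecialLinearGroup (Fin n) K) : Prop :=
  ∃ i j : Fin n, i < j ∧ j.val < n / 2 ∧ h i i * h j j = 1 ∧
    ∀ l : Fin n, l ≠ i → l ≠ j → l ≠ Fin.rev i → l ≠ Fin.rev j → h l l = 1

/-- diagonal entries equal to `1` outside the central block `n/2 - 1 ≤ · ≤ n - n/2` -/
def IsTorC (a : SpecialLinearGroup (Fin n) K) : Prop :=
  ∀ i : Fin n, (i.val + 1 < n / 2 ∨ n - n / 2 < i.val) → a i i = 1

/-- the projective group of the J-model -/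
abbrev PGJ : Type _ := ↥(GJ D n) ⧸ Subgroup.center ↥(GJ D n)

/-- the quotient map -/
def prJ : ↥(GJ D n) →* PGJ D n := QuotientGroup.mk' (Subgroup.center ↥(GJ D n))

theorem prJ_surjective : Function.Surjective (prJ D n) := QuotientGroup.mk'_surjective _

theorem ker_prJ : (prJ D n).ker = Subgroup.center ↥(GJ D n) := QuotientGroup.ker_mk' _

/-- image of `UJ` in the projective group -/
def Ubar : Subgroup (PGJ D n) := ((UJ D n).subgroupOf (GJ D n)).map (prJ D n)

/-- image of `QW` in the projective group -/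
def QWbar : Subgroup (PGJ D n) := ((QW D n).subgroupOf (GJ D n)).map (prJ D n)

/-- image of `RC` in the projective group -/
def RCbar : Subgroup (PGJ D n) := ((RC D n).subgroupOf (GJ D n)).map (prJ D n)

/-- the two radical subgroups -/
def Rset : Set (Subgroup (PGJ D n)) := {QWbar D n, RCbar D n}

end Cfsg.Agent.Lib.Helper46.PsuDefs
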