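import Mathlib
import Cfsg.Prelude.Def_FusionComponents
import Cfsg.Agent.Lib.Helper46.PsuDefs
import Cfsg.Agent.Lib.Helper52.SpStmt

set_option autoImplicit false

/-!
# Piece statements for S5172 (defining-characteristic fusion system of `PSU_n(q)`, `n ≥ 4`)

All piece statements are `Prop`-valued definitions; a piece is landed as
`theorem main : Cfsg.Agent.Lib.Helper46.PsuStmt.X.{u} := ...`.

Setting (`Cfsg.Agent.Lib.Helper46.PsuDefs`): `D : QD K q` carries `D.φ x = x ^ q`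
(`D.inv`, `D.tr`, `D.nm`, `D.ne`, `D.exists_skew`).  `GJ D n ≤ SL_n(K)` is the special unitary
group of the ANTIDIAGONAL hermitian form: `g ∈ GJ D n ↔ adjJ D n ↑g * ↑g = 1` (`mem_GJ`), where
`adjJ D n M i j = D.φ (M (rev j) (rev i))` (`adjJ_mul`, `adjJ_one`, `adjJ_single`,
`coe_inv_of_mem : ↑g⁻¹ = adjJ D n ↑g`, `mul_adjJ_of_mem`, `mem_GJ_iff_entries`).
`UJ D n = GJ D n ⊓ Uni n K` (upper unitriangular, `mem_UJ`), `QW D n` (`mem_QW`), `RC D n`
(`mem_RC`), `lamW`, `lamC`, `longM`, `shortM`, `midM`, `Corner`, `Diag`, `Upper`, `IsLong`,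
`IsShort`, `IsMid`, `IsTorH`, `IsTorC`, `PGJ D n = ↥(GJ D n) ⧸ center`, `prJ`, `Ubar`, `QWbar`,
`RCbar`, `Rset`.  Throughout `m = n / 2`, `rev i = n - 1 - i`; "skew" means `D.φ c = -c`.
-/

namespace Cfsg.Agent.Lib.Helper46.PsuStmt

open Matrix Cfsg.Agent.Lib.Helper43.SUBase Cfsg.Agent.H84.PslDefs
  Cfsg.Agent.Lib.Helper46.PsuDefs
open Cfsg.Agent.Lib.Helper52.SpStmt (CritData Crit MapConj)

universe u

/-! ## abstract pieces -/

/-- [MEQ] the data `CritData` is transported by group isomorphisms -/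
def MapEquiv : Prop :=
  ∀ {G G' : Type u} [Group G] [Group G'] (e : G ≃* G') {p : ℕ} {S : Subgroup G}
    {ℛ : Set (Subgroup G)} (_ : CritData p S ℛ),
    CritData p (S.map e.toMonoidHom) ((fun R : Subgroup G => R.map e.toMonoidHom) '' ℛ)

/-- [SYL] a `p`-subgroup `H` such that `x ^ m ∈ H` for all `x ∈ N_G(H)`, with `p ∤ m`, is a
Sylow `p`-subgroup (`card_quotient_normalizer_modEq_card_quotient`, Cauchy,
`IsPGroup.toSylow`) -/
def SylowOfNormPow : Prop :=
  ∀ {G : Type u} [Group G] [Finite G] (p : ℕ) [Fact p.Prime] (H : Subgroup G) (m : ℕ),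
    IsPGroup p H → ¬ p ∣ m → (∀ x ∈ Subgroup.normalizer (H : Set G), x ^ m ∈ H) →
    ∃ P : Sylow p G, (P : Subgroup G) = H

/-! ## matrix pieces: basics -/

/-- [ROOTS] the root elements exist in `UJ` (upper unitriangular, hence determinant `1`;
unitary by `adjJ_single`) -/
def RootsExist : Prop :=
  ∀ (n : ℕ) (K : Type u) [Field K] (q : ℕ) (D : QD K q),
    (∀ (i : Fin n) (c : K), i < Fin.rev i → D.φ c = -c →
      ∃ g ∈ UJ D n, (g : Matrix (Fin n) (Fin n) K) = longM n i c) ∧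
    (∀ (i j : Fin n) (a : K), i < j → j < Fin.rev i → j ≠ Fin.rev j →
      ∃ g ∈ UJ D n, (g : Matrix (Fin n) (Fin n) K) = shortM D n i j a) ∧
    (∀ (i j : Fin n) (a b : K), i < j → j = Fin.rev j → b + D.φ b + a * D.φ a = 0 →
      ∃ g ∈ UJ D n, (g : Matrix (Fin n) (Fin n) K) = midM D n i j a b)

/-- [Z0] an element of `GJ` commuting with all of `GJ` is a scalar matrix (commute with the
long root elements `1 + c E_{i, rev i}` for all `i ≠ rev i`, then with short/mid root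
elements) -/
def CenterScalar : Prop :=
  ∀ (n : ℕ) (K : Type u) [Field K] [Fintype K] (q : ℕ) (D : QD K q), 4 ≤ n →
    ∀ z ∈ GJ D n, (∀ g ∈ GJ D n, g * z = z * g) →
      ∃ c : K, ∀ i j : Fin n, z i j = if i = j then c else 0

/-- [Z1] a conjugate of a unitriangular matrix which is a scalar multiple of a unitriangular
matrix: the scalar is `1` (`det (g (u - 1) g⁻¹) = 0 = det (c u' - 1) = (c - 1) ^ n`) -/
def ScalarOne : Prop :=
  ∀ (n : ℕ) (K : Type u) [Field K], 1 ≤ n →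
    ∀ g u u' : SpecialLinearGroup (Fin n) K, u ∈ Uni n K → u' ∈ Uni n K →
      ∀ c : K, (∀ i j : Fin n, (g * u * g⁻¹) i j = c * u' i j) → c = 1

/-- [NU] an element of `GJ` normalizing `UJ` is upper triangular (downward induction on rows
as in `Cfsg.Agent.Lib.Helper52.PslP7a.step`, with the root elements of `UJ` in place of
transvections: compare the `(i, i)` entries of `g * u = (g * u * g⁻¹) * g`) -/
def NormU : Prop :=
  ∀ (n : ℕ) (K : Type u) [Field K] [Fintype K] (q : ℕ) (D : QD K q), 4 ≤ n →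
    ∀ g ∈ GJ D n, (∀ u ∈ UJ D n, g * u * g⁻¹ ∈ UJ D n) → Upper n g

/-- [UD] an upper triangular element of `GJ` is `t * u`, `t ∈ GJ` diagonal, `u ∈ UJ` -/
def UpperDecomp : Prop :=
  ∀ (n : ℕ) (K : Type u) [Field K] [Fintype K] (q : ℕ) (D : QD K q), 4 ≤ n →
    ∀ g ∈ GJ D n, Upper n g →
      ∃ t u : SpecialLinearGroup (Fin n) K, t ∈ GJ D n ∧ Diag n t ∧ u ∈ UJ D n ∧ g = t * u

/-- [DB] a diagonal matrix of `SL_n(K)` normalizes the unitriangular group and has order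
dividing `|K| - 1` -/
def DiagBasic : Prop :=
  ∀ (n : ℕ) (K : Type u) [Field K] [Fintype K] (t : SpecialLinearGroup (Fin n) K), Diag n t →
    (∀ u ∈ Uni n K, t * u * t⁻¹ ∈ Uni n K) ∧ t ^ (Fintype.card K - 1) = 1

/-- [NT] `UJ` contains a non-diagonal matrix (`1 + c E_{0, n-1}`, `c ≠ 0` skew) -/
def UJNontrivial : Prop :=
  ∀ (n : ℕ) (K : Type u) [Field K] [Fintype K] (q : ℕ) (D : QD K q), 4 ≤ n →
    ∃ u ∈ UJ D n, ∃ i j : Fin n, i ≠ j ∧ u i j ≠ 0

/-- [NL] a matrix which is weakly block triangular for the level function `lam` normalizes the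
group `sub n K lam` (`Matrix.blockTriangular_inv_of_blockTriangular` for the inverse) -/
def NormalLam : Prop :=
  ∀ (n : ℕ) (K : Type u) [Field K] (lam : Fin n → ℤ) (g : SpecialLinearGroup (Fin n) K),
    (∀ k l : Fin n, lam k < lam l → g k l = 0) →
    ∀ r ∈ sub n K lam, g * r * g⁻¹ ∈ sub n K lam

/-! ## matrix pieces: strongly closed subgroups

In CIT, LIT, STT, SLT, MIT the subgroup `T ≤ UJ` is closed under `GJ`-conjugates lying
in `UJ`. -/

/-- [CC] the centre of `UJ` consists of corner matrices `1 + c E_{0, n-1}` -/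
def CenterCorner : Prop :=
  ∀ (n : ℕ) (K : Type u) [Field K] [Fintype K] (q : ℕ) (D : QD K q), 4 ≤ n →
    ∀ z ∈ UJ D n, (∀ u ∈ UJ D n, u * z = z * u) → Corner n z

/-- [CIT] if `T` contains a nontrivial corner matrix then it contains all corner matrices of
`UJ` (conjugate by `diag(λ, φ λ, 1, .., 1, λ⁻¹, (φ λ)⁻¹) ∈ GJ`: the corner entry is multiplied by
`λ * φ λ`; norms are onto the fixed field, and the ratio of two skew elements is fixed) -/
def CornerInT : Prop :=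
  ∀ (n : ℕ) (K : Type u) [Field K] [Fintype K] (q : ℕ) (D : QD K q), 4 ≤ n →
    ∀ T : Subgroup (SpecialLinearGroup (Fin n) K), T ≤ UJ D n →
      (∀ t ∈ T, ∀ g ∈ GJ D n, g * t * g⁻¹ ∈ UJ D n → g * t * g⁻¹ ∈ T) →
      (∃ z ∈ T, z ≠ 1 ∧ Corner n z) → ∀ g ∈ UJ D n, Corner n g → g ∈ T

/-- [LIT] then `T` contains all long root elements `1 + c E_{i, rev i}` of `UJ` (conjugate by
the permutation matrix of `(0 i)(n-1 rev i)`, which lies in `GJ`) -/
def LongInT : Prop :=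
  ∀ (n : ℕ) (K : Type u) [Field K] [Fintype K] (q : ℕ) (D : QD K q), 4 ≤ n →
    ∀ T : Subgroup (SpecialLinearGroup (Fin n) K), T ≤ UJ D n →
      (∀ t ∈ T, ∀ g ∈ GJ D n, g * t * g⁻¹ ∈ UJ D n → g * t * g⁻¹ ∈ T) →
      (∀ g ∈ UJ D n, Corner n g → g ∈ T) → ∀ g ∈ UJ D n, IsLong n g → g ∈ T

/-- [STT] then `T` contains the short root elements in the top right block: with `i' = rev j`
(so `i < i' < n/2`), `c ≠ 0` skew and `h = 1 + β E_{i', i} - φ β E_{rev i, rev i'} ∈ GJ`,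
`h (1 + c E_{i, rev i}) h⁻¹ = 1 + c (E_{i, rev i} + φ β E_{i, rev i'} + β E_{i', rev i} +
β φ β E_{i', rev i'}) ∈ UJ`; multiply by two long root elements -/
def ShortTopInT : Prop :=
  ∀ (n : ℕ) (K : Type u) [Field K] [Fintype K] (q : ℕ) (D : QD K q), 4 ≤ n →
    ∀ T : Subgroup (SpecialLinearGroup (Fin n) K), T ≤ UJ D n →
      (∀ t ∈ T, ∀ g ∈ GJ D n, g * t * g⁻¹ ∈ UJ D n → g * t * g⁻¹ ∈ T) →
      (∀ g ∈ UJ D n, IsLong n g → g ∈ T) →
      ∀ g ∈ UJ D n, (∃ (i j : Fin n) (a : K), i < j ∧ j < Fin.rev i ∧ n - n / 2 ≤ j.val ∧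
        (g : Matrix (Fin n) (Fin n) K) = shortM D n i j a) → g ∈ T

/-- [SLT] then `T` contains the short root elements of the Levi factor (`i < j < n/2`):
with `ζ ≠ 0` skew and `w = 1 - E_{j j} - E_{rev j, rev j} + ζ E_{rev j, j} - ζ⁻¹ E_{j, rev j}
∈ GJ`, `w * shortM i j a * w⁻¹ = shortM i (rev j) (a ζ⁻¹)` -/
def ShortLeviInT : Prop :=
  ∀ (n : ℕ) (K : Type u) [Field K] [Fintype K] (q : ℕ) (D : QD K q), 4 ≤ n →
    ∀ T : Subgroup (SpecialLinearGroup (Fin n) K), T ≤ UJ D n →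
      (∀ t ∈ T, ∀ g ∈ GJ D n, g * t * g⁻¹ ∈ UJ D n → g * t * g⁻¹ ∈ T) →
      (∀ g ∈ UJ D n, (∃ (i j : Fin n) (a : K), i < j ∧ j < Fin.rev i ∧ n - n / 2 ≤ j.val ∧
        (g : Matrix (Fin n) (Fin n) K) = shortM D n i j a) → g ∈ T) →
      ∀ g ∈ UJ D n, (∃ (i j : Fin n) (a : K), i < j ∧ j.val < n / 2 ∧
        (g : Matrix (Fin n) (Fin n) K) = shortM D n i j a) → g ∈ T

/-- [MIT] then `T` contains the root elements through the middle index `j = rev j`.  For
`i = 0`, `k = 1`, `x = midM 1 j a b'`, `y = shortM 0 1 1 ∈ T`: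
`x y x⁻¹ y⁻¹ = midM 0 j (-a) (φ b') * shortM 0 (rev 1) (φ b')`.  For `i > 0` conjugate
`midM 0 j a b` by the permutation matrix of `(0 i)(n-1 rev i)`. -/
def MidInT : Prop :=
  ∀ (n : ℕ) (K : Type u) [Field K] [Fintype K] (q : ℕ) (D : QD K q), 4 ≤ n →
    ∀ T : Subgroup (SpecialLinearGroup (Fin n) K), T ≤ UJ D n →
      (∀ t ∈ T, ∀ g ∈ GJ D n, g * t * g⁻¹ ∈ UJ D n → g * t * g⁻¹ ∈ T) →
      (∀ g ∈ UJ D n, (∃ (i j : Fin n) (a : K), i < j ∧ j < Fin.rev i ∧ n - n / 2 ≤ j.val ∧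
        (g : Matrix (Fin n) (Fin n) K) = shortM D n i j a) → g ∈ T) →
      (∀ g ∈ UJ D n, (∃ (i j : Fin n) (a : K), i < j ∧ j.val < n / 2 ∧
        (g : Matrix (Fin n) (Fin n) K) = shortM D n i j a) → g ∈ T) →
      ∀ g ∈ UJ D n, IsMid D n g → g ∈ T

/-- [GEN] `UJ` is generated by its root elements.  Downward induction on `k`: if the rows
`< k` of `u ∈ UJ` are trivial (then so are the columns `> rev k`, by `mul_adjJ_of_mem`), kill
the entries `(k, j)`, `k < j < rev k`, by right multiplication with `shortM k j (-u k j)` (or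
`midM k j (-u k j) b` if `j = rev j`); then the entry `c` at `(k, rev k)` is skew and is killed
by `longM k (-c)`. -/
def GenRoot : Prop :=
  ∀ (n : ℕ) (K : Type u) [Field K] [Fintype K] (q : ℕ) (D : QD K q), 4 ≤ n →
    UJ D n ≤ Subgroup.closure
      {g : SpecialLinearGroup (Fin n) K | g ∈ UJ D n ∧ (IsLong n g ∨ IsShort D n g ∨ IsMid D n g)}

/-- [CLJ] a nontrivial subgroup of `UJ` closed under `GJ`-conjugates lying in `UJ` is `UJ` -/
def ClosedJ : Prop :=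
  ∀ (n : ℕ) (K : Type u) [Field K] [Fintype K] (p : ℕ) [Fact p.Prime] [CharP K p] (q : ℕ)
    (D : QD K q), 4 ≤ n →
    ∀ T : Subgroup (SpecialLinearGroup (Fin n) K), T ≤ UJ D n → T ≠ ⊥ →
      (∀ t ∈ T, ∀ g ∈ GJ D n, g * t * g⁻¹ ∈ UJ D n → g * t * g⁻¹ ∈ T) → T = UJ D n

/-- [CLP] `ClosedJ` from its parts: `T ⊴ UJ`, `UJ` is a `p`-group (`isPGroup_Uni` below), so
`T` contains a nontrivial central element of `UJ` -/
def ClosedOfParts : Prop :=
  CenterCorner.{u} → CornerInT.{u} → LongInT.{u} → ShortTopInT.{u} → ShortLeviInT.{u} →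
    MidInT.{u} → GenRoot.{u} → ClosedJ.{u}

/-! ## matrix pieces: the radical subgroups `QW` and `RC` -/

/-- [CW] the centralizer of `QW` in `GJ` is `scalars * QW` -/
def CentW : Prop :=
  ∀ (n : ℕ) (K : Type u) [Field K] [Fintype K] (q : ℕ) (D : QD K q), 4 ≤ n →
    ∀ g ∈ GJ D n, (∀ r ∈ QW D n, g * r = r * g) →
      ∃ c : K, ∃ r0 ∈ QW D n, ∀ i j : Fin n, g i j = c * r0 i j

/-- [CR] the centralizer of `RC` in `GJ` is `scalars * RC` (already the centralizer of the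
elements of `RC` supported on row `0` and column `n - 1` is `scalars * (such elements)`) -/
def CentC : Prop :=
  ∀ (n : ℕ) (K : Type u) [Field K] [Fintype K] (q : ℕ) (D : QD K q), 4 ≤ n →
    ∀ g ∈ GJ D n, (∀ r ∈ RC D n, g * r = r * g) →
      ∃ c : K, ∃ r0 ∈ RC D n, ∀ i j : Fin n, g i j = c * r0 i j

/-- [IW] the permutation matrix `w` reversing `0 .. n/2-1` and reversing `n-n/2 .. n-1` (it
commutes with `rev`, determinant `1`) lies in `GJ`, is block diagonal for `lamW`, and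
`UJ ∩ w⁻¹ UJ w ≤ QW` -/
def IntW : Prop :=
  ∀ (n : ℕ) (K : Type u) [Field K] [Fintype K] (q : ℕ) (D : QD K q), 4 ≤ n →
    ∃ w ∈ GJ D n, (∀ i j : Fin n, lamW n i < lamW n j → w i j = 0) ∧
      ∀ u ∈ UJ D n, w * u * w⁻¹ ∈ UJ D n → u ∈ QW D n

/-- [IC] with `k = n/2 - 1`, `ζ ≠ 0` skew, `w = 1 - E_{k k} - E_{rev k, rev k} + ζ E_{rev k, k}
- ζ⁻¹ E_{k, rev k}` lies in `GJ`, is block diagonal for `lamC`, and `UJ ∩ w⁻¹ UJ w ≤ RC` -/
def IntC : Prop :=
  ∀ (n : ℕ) (K : Type u) [Field K] [Fintype K] (q : ℕ) (D : QD K q), 4 ≤ n →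
    ∃ w ∈ GJ D n, (∀ i j : Fin n, lamC n i < lamC n j → w i j = 0) ∧
      ∀ u ∈ UJ D n, w * u * w⁻¹ ∈ UJ D n → u ∈ RC D n

/-! ## matrix pieces: the torus -/

/-- [TG] a diagonal element of `GJ` is a product of elements of shape `IsTorH` and of one
element of shape `IsTorC` (induction: multiply by the `IsTorH` element with entries
`(t k k)⁻¹` at `k`, `t k k` at `n/2 - 1` for `k + 1 < n/2`) -/
def TorGen : Prop :=
  ∀ (n : ℕ) (K : Type u) [Field K] [Fintype K] (q : ℕ) (D : QD K q), 4 ≤ n →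
    ∀ t ∈ GJ D n, Diag n t →
      t ∈ Subgroup.closure
        ({h : SpecialLinearGroup (Fin n) K | h ∈ GJ D n ∧ Diag n h ∧ IsTorH n h} ∪
          {a : SpecialLinearGroup (Fin n) K | a ∈ GJ D n ∧ Diag n a ∧ IsTorC n a})

/-- [TH] a diagonal element of `GJ` of shape `IsTorH` (entries `β, β⁻¹` at `i < j < n/2`) is a
product of six elements `1 + c E_{i j} - φ c E_{rev j, rev i}`,
`1 + c E_{j i} - φ c E_{rev i, rev j}` (`SL_2` identity, cf.
`Cfsg.Agent.Lib.Helper52.PslP7c.H`), each in `GJ`, block diagonal for `lamW`, of order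
dividing `p` -/
def TorH : Prop :=
  ∀ (n : ℕ) (K : Type u) [Field K] [Fintype K] (p : ℕ) [Fact p.Prime] [CharP K p] (q : ℕ)
    (D : QD K q), 4 ≤ n →
    ∀ h ∈ GJ D n, Diag n h → IsTorH n h →
      h ∈ Subgroup.closure {k : SpecialLinearGroup (Fin n) K | k ∈ GJ D n ∧
        (∀ i j : Fin n, lamW n i < lamW n j → k i j = 0) ∧ ∃ e : ℕ, k ^ (p ^ e) = 1}

/-- [TCE] `n` even, `k = n/2 - 1`: a diagonal element of `GJ` of shape `IsTorC` is
`diag(.., λ, λ⁻¹, ..)` at `k, k+1` with `φ λ = λ`, a product of six long root elements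
`1 + c E_{k, k+1}`, `1 + c E_{k+1, k}` (`c` skew) -/
def TorCEven : Prop :=
  ∀ (n : ℕ) (K : Type u) [Field K] [Fintype K] (p : ℕ) [Fact p.Prime] [CharP K p] (q : ℕ)
    (D : QD K q), 4 ≤ n → n % 2 = 0 →
    ∀ a ∈ GJ D n, Diag n a → IsTorC n a →
      a ∈ Subgroup.closure {k : SpecialLinearGroup (Fin n) K | k ∈ GJ D n ∧
        (∀ i j : Fin n, lamC n i < lamC n j → k i j = 0) ∧ ∃ e : ℕ, k ^ (p ^ e) = 1}

/-- [TCO] `n` odd, `k = n/2 - 1`: a diagonal element of `GJ` of shape `IsTorC` is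
`diag(.., λ, φ λ / λ, (φ λ)⁻¹, ..)` at `k, k+1, k+2`.  In the `SU_3` of the central block, with
`x(a,b) = [1 a b; 0 1 -φ a; 0 0 1]`, `y(c,d) = [1 0 0; c 1 0; d -φ c 1]`
(`b + φ b + a φ a = 0`, `d + φ d + c φ c = 0`), for `b ≠ 0`:
`x(a,b) y(φ a / φ b, 1 / φ b) x(a φ b / b, b) = antidiag(b, -φ b / b, 1 / φ b) =: n(a,b)` and
`n(a,b) n(0,b0)⁻¹ = diag(b/b0, -φ b / b, -b0 / φ b)` for `b0 ≠ 0` skew; take `b = λ b0` and `a`
with `a φ a = -(b + φ b)`. -/
def TorCOdd : Prop :=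
  ∀ (n : ℕ) (K : Type u) [Field K] [Fintype K] (p : ℕ) [Fact p.Prime] [CharP K p] (q : ℕ)
    (D : QD K q), 4 ≤ n → n % 2 = 1 →
    ∀ a ∈ GJ D n, Diag n a → IsTorC n a →
      a ∈ Subgroup.closure {k : SpecialLinearGroup (Fin n) K | k ∈ GJ D n ∧
        (∀ i j : Fin n, lamC n i < lamC n j → k i j = 0) ∧ ∃ e : ℕ, k ^ (p ^ e) = 1}

/-! ## the Witt isomorphism -/

/-- [WB] a basis of the standard hermitian space with antidiagonal Gram matrix (columns of
`E`): `e_i = eps (2i) + η eps (2i+1)`, `rev`-partner `s eps (2i) - φ s η eps (2i+1)`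
(`η φ η = -1`, `s + φ s = 1`), middle vector `eps (n-1)` for odd `n`; cf.
`Cfsg.Agent.Lib.Helper46.SUModelU.gram4` -/
def WittBasis : Prop :=
  ∀ (n : ℕ) (K : Type u) [Field K] [Fintype K] (q : ℕ) (D : QD K q),
    ∃ E : Matrix (Fin n) (Fin n) K, ∀ i j : Fin n,
      ∑ k : Fin n, E k i * D.φ (E k j) = if i = Fin.rev j then 1 else 0

/-- [WI] the special unitary group `Cfsg.SU n K q` of the standard form is isomorphic to `GJ`
(`g ↦ E⁻¹ g E`) -/
def WittIso : Prop :=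
  ∀ (n : ℕ) (K : Type u) [Field K] [Fintype K] (q : ℕ) (D : QD K q),
    Nonempty (↥(Cfsg.SU n K q) ≃* ↥(GJ D n))

/-- [WIP] `WittIso` from `WittBasis` -/
def WittIsoOfBasis : Prop := WittBasis.{u} → WittIso.{u}

/-! ## pieces in the projective group `PGJ D n` -/

/-- [LC] if the image in `PGJ` of a `GJ`-conjugate of an element of `UJ` lies in `Ubar`, then
the conjugate lies in `UJ` -/
def LiftConj : Prop :=
  ∀ (n : ℕ) (K : Type u) [Field K] [Fintype K] (q : ℕ) (D : QD K q), 4 ≤ n →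
    ∀ g x : ↥(GJ D n), (x : SpecialLinearGroup (Fin n) K) ∈ UJ D n →
      prJ D n (g * x * g⁻¹) ∈ Ubar D n →
      ((g * x * g⁻¹ : ↥(GJ D n)) : SpecialLinearGroup (Fin n) K) ∈ UJ D n

/-- [LCP] `LiftConj` from `CenterScalar` and `ScalarOne` -/
def LiftConjOfParts : Prop := CenterScalar.{u} → ScalarOne.{u} → LiftConj.{u}

/-- [DNE] `Ubar ≠ ⊥` -/
def DataNe : Prop :=
  ∀ (n : ℕ) (K : Type u) [Field K] [Fintype K] (q : ℕ) (D : QD K q), 4 ≤ n → Ubar D n ≠ ⊥

/-- [DNEP] `DataNe` from its parts -/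
def DataNeOfParts : Prop := CenterScalar.{u} → UJNontrivial.{u} → DataNe.{u}

/-- [DCL] the `closed` field of `CritData` -/
def DataClosed : Prop :=
  ∀ (n : ℕ) (K : Type u) [Field K] [Fintype K] (p : ℕ) [Fact p.Prime] [CharP K p] (q : ℕ)
    (D : QD K q), 4 ≤ n →
    ∀ T : Subgroup (PGJ D n), T ≤ Ubar D n → T ≠ ⊥ →
      (∀ t ∈ T, ∀ g : PGJ D n, g * t * g⁻¹ ∈ Ubar D n → g * t * g⁻¹ ∈ T) → T = Ubar D n

/-- [DCLP] `DataClosed` from `ClosedJ` (pull `T` back to `UJ`) -/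
def DataClosedOfParts : Prop := ClosedJ.{u} → DataClosed.{u}

/-- [DRN] the radical subgroups lie in `Ubar` and are normalized by it -/
def DataRad : Prop :=
  ∀ (n : ℕ) (K : Type u) [Field K] [Fintype K] (q : ℕ) (D : QD K q), 4 ≤ n →
    ∀ R ∈ Rset D n, R ≤ Ubar D n ∧ ∀ s ∈ Ubar D n, ∀ r ∈ R, s * r * s⁻¹ ∈ R

/-- [DRNP] `DataRad` from `NormalLam` (`lamW_antitone`, `lamC_antitone`, `QW_le_UJ`,
`RC_le_UJ`) -/
def DataRadOfParts : Prop := NormalLam.{u} → DataRad.{u}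

/-- [DCT] the radical subgroups contain their centralizers in `PGJ` -/
def DataCent : Prop :=
  ∀ (n : ℕ) (K : Type u) [Field K] [Fintype K] (q : ℕ) (D : QD K q), 4 ≤ n →
    ∀ R ∈ Rset D n, ∀ g : PGJ D n, (∀ r ∈ R, g * r = r * g) → g ∈ R

/-- [DCTP] `DataCent` from its parts: if `g r g⁻¹ r⁻¹` is central it is scalar (`CenterScalar`),
hence `1` (`ScalarOne`); then `g = c r0` and the scalar `g r0⁻¹` is central -/
def DataCentOfParts : Prop :=
  CenterScalar.{u} → ScalarOne.{u} → CentW.{u} → CentC.{u} → DataCent.{u}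

/-- [DOP] the `rad_opp` field of `CritData` -/
def DataOpp : Prop :=
  ∀ (n : ℕ) (K : Type u) [Field K] [Fintype K] (q : ℕ) (D : QD K q), 4 ≤ n →
    ∀ R ∈ Rset D n, ∃ x ∈ Subgroup.normalizer (R : Set (PGJ D n)),
      ∀ y ∈ Ubar D n, x * y * x⁻¹ ∈ Ubar D n → y ∈ R

/-- [DOPP] `DataOpp` from its parts (`PGJ` is finite:
`Cfsg.Agent.Lib.Helper52.PslP7c.mem_normalizer_of_conj`) -/
def DataOppOfParts : Prop :=
  LiftConj.{u} → NormalLam.{u} → IntW.{u} → IntC.{u} → DataOpp.{u}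

/-- [NB] an element of `PGJ` normalizing `Ubar` is the image of `t * u`, `t` diagonal,
`u ∈ UJ` -/
def NormBorel : Prop :=
  ∀ (n : ℕ) (K : Type u) [Field K] [Fintype K] (q : ℕ) (D : QD K q), 4 ≤ n →
    ∀ x ∈ Subgroup.normalizer (Ubar D n : Set (PGJ D n)),
      ∃ t u : ↥(GJ D n), Diag n (t : SpecialLinearGroup (Fin n) K) ∧
        (u : SpecialLinearGroup (Fin n) K) ∈ UJ D n ∧ x = prJ D n (t * u)

/-- [NBP] `NormBorel` from its parts -/
def NormBorelOfParts : Prop := LiftConj.{u} → NormU.{u} → UpperDecomp.{u} → NormBorel.{u}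

/-- [DSY] `Ubar` is a Sylow `p`-subgroup of `PGJ` -/
def DataSylow : Prop :=
  ∀ (n : ℕ) (K : Type u) [Field K] [Fintype K] (p : ℕ) [Fact p.Prime] [CharP K p] (q : ℕ)
    (D : QD K q), 4 ≤ n →
    ∃ P : Sylow p (PGJ D n), (P : Subgroup (PGJ D n)) = Ubar D n

/-- [DSYP] `DataSylow` from its parts: `m = |K| - 1`; `(t u) ^ m ∈ t ^ m * UJ = UJ` -/
def DataSylowOfParts : Prop :=
  SylowOfNormPow.{u} → NormBorel.{u} → DiagBasic.{u} → DataSylow.{u}

/-- [DNG] the `norm_gen` field of `CritData` -/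
def DataNormGen : Prop :=
  ∀ (n : ℕ) (K : Type u) [Field K] [Fintype K] (p : ℕ) [Fact p.Prime] [CharP K p] (q : ℕ)
    (D : QD K q), 4 ≤ n →
    Subgroup.normalizer (Ubar D n : Set (PGJ D n)) ≤ Subgroup.closure
      {h : PGJ D n | h ∈ Subgroup.normalizer (Ubar D n : Set (PGJ D n)) ∧ ∃ R ∈ Rset D n,
        h ∈ Subgroup.closure {k : PGJ D n | k ∈ Subgroup.normalizer (R : Set (PGJ D n)) ∧
          ∃ e : ℕ, orderOf k = p ^ e}}

/-- [DTO] the image of a diagonal element of `GJ` lies in the closure occurring in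
`DataNormGen` -/
def DataTorus : Prop :=
  ∀ (n : ℕ) (K : Type u) [Field K] [Fintype K] (p : ℕ) [Fact p.Prime] [CharP K p] (q : ℕ)
    (D : QD K q), 4 ≤ n →
    ∀ t : ↥(GJ D n), Diag n (t : SpecialLinearGroup (Fin n) K) →
      prJ D n t ∈ Subgroup.closure
        {h : PGJ D n | h ∈ Subgroup.normalizer (Ubar D n : Set (PGJ D n)) ∧ ∃ R ∈ Rset D n,
          h ∈ Subgroup.closure {k : PGJ D n | k ∈ Subgroup.normalizer (R : Set (PGJ D n)) ∧
            ∃ e : ℕ, orderOf k = p ^ e}}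

/-- [DTOP] `DataTorus` from its parts: closure induction on `TorGen`; a generator `h`
(`IsTorH`) or `a` (`IsTorC`) is diagonal, so its image normalizes `Ubar` (`DiagBasic`), and
lies in the closure of the images of the elements given by `TorH` resp. `TorCEven`/`TorCOdd`,
which normalize `QWbar` resp. `RCbar` (`NormalLam`) and have `p`-power order -/
def DataTorusOfParts : Prop :=
  DiagBasic.{u} → NormalLam.{u} → TorGen.{u} → TorH.{u} → TorCEven.{u} → TorCOdd.{u} →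
    DataTorus.{u}

/-- [DNGP] `DataNormGen` from its parts: `x = prJ t * prJ u`; `prJ u ∈ Ubar` normalizes
`QWbar` (`DataRad`) and has `p`-power order (`isPGroup_Uni`) -/
def DataNormGenOfParts : Prop :=
  NormBorel.{u} → DataRad.{u} → DataTorus.{u} → DataNormGen.{u}

/-- all the data -/
def DataAll : Prop :=
  ∀ (n : ℕ) (K : Type u) [Field K] [Fintype K] (p : ℕ) [Fact p.Prime] [CharP K p] (q : ℕ)
    (D : QD K q), 4 ≤ n →
    (∃ P : Sylow p (PGJ D n), (P : Subgroup (PGJ D n)) = Ubar D n) ∧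
      CritData p (Ubar D n) (Rset D n)

/-- the statement S5172 -/
def Goal : Prop :=
  ∀ {K : Type u} [Field K] [Fintype K] (p q : ℕ) [Fact p.Prime] [CharP K p]
    (_ : Fintype.card K = q ^ 2) (n : ℕ) (_ : 4 ≤ n) (S : Sylow p (Cfsg.PSU n K q)),
    (Cfsg.groupFusionSystem (S : Subgroup (Cfsg.PSU n K q))).IsSimple p

/-- [FIN] the statement from the data: `D := qd hK`; the isomorphism `WittIso` induces
`E : PGJ D n ≃* Cfsg.PSU n K q` (`QuotientGroup.congr`, the centres correspond); transport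
`CritData` by `MapEquiv`; the Sylow subgroup `S` is conjugate to the image of `Ubar`
(`Sylow.comapOfInjective`, `MulAction.exists_smul_eq`): transport by `MapConj`; apply `Crit`
(compare `Cfsg.Agent.Lib.Helper52.SpAsm.assembly`) -/
def Final : Prop :=
  WittIso.{u} → MapEquiv.{u} → MapConj.{u} → Crit.{u} → DataAll.{u} → Goal.{u}

end Cfsg.Agent.Lib.Helper46.PsuStmt
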