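import Mathlib
import Cfsg.Agent.Lib.Helper46.PsuStmt

set_option autoImplicit false

/-!
# Piece ROOTS of S5172: the root elements exist in `UJ`
-/

namespace Cfsg.Agent.Lib.Helper46.PsuROOTS

open Matrix Cfsg.Agent.Lib.Helper43.SUBase Cfsg.Agent.H84.PslDefs
  Cfsg.Agent.Lib.Helper46.PsuDefs Cfsg.Agent.Lib.Helper46.PsuStmt

universe u

variable {K : Type u} [Field K] {q : ℕ} (D : QD K q) {n : ℕ}

/-- an upper unitriangular matrix with `adjJ M * M = 1` gives an element of `UJ` -/
theorem exists_of_matrix (M : Matrix (Fin n) (Fin n) K) (hU : ∀ i j : Fin n, j < i → M i j = 0)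
    (hd : ∀ i, M i i = 1) (hJ : adjJ D n M * M = 1) :
    ∃ g ∈ UJ D n, (g : Matrix (Fin n) (Fin n) K) = M := by
  have hdet : M.det = 1 := by
    have hbt : M.BlockTriangular id := fun i j hij => hU i j hij
    rw [Matrix.det_of_upperTriangular hbt]
    exact Finset.prod_eq_one (fun i _ => hd i)
  exact ⟨⟨M, hdet⟩, (mem_UJ D n ⟨M, hdet⟩).2 ⟨hJ, hU, hd⟩, rfl⟩

theorem single_upper {i j : Fin n} (hij : i < j) (a : K) (k l : Fin n) (hlk : l ≤ k) :
    Matrix.single i j a k l = 0 := by
  rw [Matrix.single_apply, if_neg]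
  rintro ⟨rfl, rfl⟩
  exact absurd hij (not_lt.2 hlk)

theorem rev_lt_rev {i j : Fin n} (h : i < j) : Fin.rev j < Fin.rev i := Fin.rev_lt_rev.2 h

theorem long_exists (i : Fin n) (c : K) (hi : i < Fin.rev i) (hc : D.φ c = -c) :
    ∃ g ∈ UJ D n, (g : Matrix (Fin n) (Fin n) K) = longM n i c := by
  apply exists_of_matrix
  · intro k l hlk
    rw [longM, Matrix.add_apply, Matrix.one_apply_ne (ne_of_gt hlk), zero_add]
    exact single_upper hi c k l (le_of_lt hlk)
  · intro k
    rw [longM, Matrix.add_apply, Matrix.one_apply_eq, single_upper hi c k k le_rfl, add_zero]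
  · rw [longM, adjJ_add, adjJ_one, adjJ_single, Fin.rev_rev, hc]
    rw [Matrix.add_mul, Matrix.one_mul, Matrix.mul_add, Matrix.mul_one,
      Matrix.single_mul_single_of_ne _ _ _ _ (ne_of_gt hi)]
    rw [add_zero, add_assoc, ← Matrix.single_add,
      add_neg_cancel, Matrix.single_zero, add_zero]

theorem short_exists (i j : Fin n) (a : K) (hij : i < j) (hj : j < Fin.rev i)
    (hjj : j ≠ Fin.rev j) :
    ∃ g ∈ UJ D n, (g : Matrix (Fin n) (Fin n) K) = shortM D n i j a := by
  have hrr : Fin.rev j < Fin.rev i := rev_lt_rev hij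
  have hii : i ≠ Fin.rev i := ne_of_lt (lt_trans hij hj)
  apply exists_of_matrix
  · intro k l hlk
    rw [shortM, Matrix.sub_apply, Matrix.add_apply, Matrix.one_apply_ne (ne_of_gt hlk), zero_add,
      single_upper hij a k l (le_of_lt hlk), single_upper hrr _ k l (le_of_lt hlk), sub_zero]
  · intro k
    rw [shortM, Matrix.sub_apply, Matrix.add_apply, Matrix.one_apply_eq,
      single_upper hij a k k le_rfl, single_upper hrr _ k k le_rfl, sub_zero, add_zero]
  · rw [shortM, adjJ_sub, adjJ_add, adjJ_one, adjJ_single, adjJ_single, Fin.rev_rev, Fin.rev_rev,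
      D.inv]
    have e1 : Matrix.single (Fin.rev j) (Fin.rev i) (D.φ a) * Matrix.single i j a = 0 :=
      Matrix.single_mul_single_of_ne _ _ _ _ (fun h => hii h.symm) _
    have e2 : Matrix.single (Fin.rev j) (Fin.rev i) (D.φ a) *
        Matrix.single (Fin.rev j) (Fin.rev i) (D.φ a) = 0 :=
      Matrix.single_mul_single_of_ne _ _ _ _ (ne_of_gt hrr) _
    have e3 : Matrix.single i j a * Matrix.single i j a = 0 :=
      Matrix.single_mul_single_of_ne _ _ _ _ (ne_of_gt hij) _
    have e4 : Matrix.single i j a * Matrix.single (Fin.rev j) (Fin.rev i) (D.φ a) = 0 :=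
      Matrix.single_mul_single_of_ne _ _ _ _ hjj _
    simp only [Matrix.add_mul, Matrix.sub_mul, Matrix.mul_add, Matrix.mul_sub, Matrix.one_mul,
      Matrix.mul_one, e1, e2, e3, e4]
    abel

theorem mid_exists (i j : Fin n) (a b : K) (hij : i < j) (hjj : j = Fin.rev j)
    (hb : b + D.φ b + a * D.φ a = 0) :
    ∃ g ∈ UJ D n, (g : Matrix (Fin n) (Fin n) K) = midM D n i j a b := by
  have hrr : Fin.rev j < Fin.rev i := rev_lt_rev hij
  have hji : j < Fin.rev i := by rw [hjj]; exact hrr
  have hi : i < Fin.rev i := lt_trans hij hji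
  apply exists_of_matrix
  · intro k l hlk
    rw [midM, Matrix.add_apply, Matrix.sub_apply, Matrix.add_apply,
      Matrix.one_apply_ne (ne_of_gt hlk), zero_add,
      single_upper hij a k l (le_of_lt hlk), single_upper hji _ k l (le_of_lt hlk),
      single_upper hi b k l (le_of_lt hlk), sub_zero, add_zero]
  · intro k
    rw [midM, Matrix.add_apply, Matrix.sub_apply, Matrix.add_apply, Matrix.one_apply_eq,
      single_upper hij a k k le_rfl, single_upper hji _ k k le_rfl,
      single_upper hi b k k le_rfl, sub_zero, add_zero, add_zero]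
  · rw [midM, adjJ_add, adjJ_sub, adjJ_add, adjJ_one, adjJ_single, adjJ_single, adjJ_single,
      Fin.rev_rev, D.inv, ← hjj]
    have hne1 : Fin.rev i ≠ i := ne_of_gt hi
    have hne2 : Fin.rev i ≠ j := ne_of_gt hji
    have hne3 : j ≠ i := ne_of_gt hij
    simp only [Matrix.add_mul, Matrix.sub_mul, Matrix.mul_add, Matrix.mul_sub, Matrix.one_mul,
      Matrix.mul_one, Matrix.single_mul_single_same,
      Matrix.single_mul_single_of_ne _ _ _ _ hne1, Matrix.single_mul_single_of_ne _ _ _ _ hne2,
      Matrix.single_mul_single_of_ne _ _ _ _ hne3]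
    have hb' : Matrix.single i (Fin.rev i) (b + D.φ b + a * D.φ a) =
        (0 : Matrix (Fin n) (Fin n) K) := by rw [hb, Matrix.single_zero]
    rw [Matrix.single_add, Matrix.single_add] at hb'
    rw [← sub_eq_zero]
    rw [← hb']
    abel

theorem main : RootsExist.{u} := by
  intro n K _ q D
  exact ⟨fun i c hi hc => long_exists D i c hi hc,
    fun i j a hij hj hjj => short_exists D i j a hij hj hjj,
    fun i j a b hij hjj hb => mid_exists D i j a b hij hjj hb⟩

end Cfsg.Agent.Lib.Helper46.PsuROOTS
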