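import Mathlib
import Cfsg.Agent.Lib.Helper80.FTStmt
import Cfsg.Agent.S0034
import Cfsg.Agent.S0035

/-!
# S3999 piece NSC (third seat, helper46)

From the Frobenius complement to the Frobenius group: the `3`- and `5`-parts of the order and the
absence of elements of order `15` pass from `C` to `X`.
-/

set_option autoImplicit false

namespace Cfsg.Agent.Lib.Helper46.FTNSC

open Cfsg.Agent.Lib.Helper80.FTStmt

open scoped Pointwise

universe u

theorem main : NSC.{u} := by
  intro X _ _ C hC h3 h5 h15
  obtain ⟨hker, hmod⟩ := Cfsg.Agent.S0034.result C hC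
  obtain ⟨N, hN, _, _⟩ := Cfsg.Agent.S0035.result C hC
  have hcard : Nat.card ↥C * C.index = Nat.card X := Subgroup.card_mul_index C
  have hc0 : Nat.card ↥C ≠ 0 := Nat.card_pos.ne'
  have hk0 : C.index ≠ 0 := by
    intro h0
    rw [h0, mul_zero] at hcard
    exact (Nat.card_pos (α := X)).ne' hcard.symm
  have hcop : Nat.Coprime (Nat.card ↥C) C.index := by
    unfold Nat.Coprime
    rw [Nat.gcd_rec, hmod, ← Nat.gcd_rec, Nat.gcd_one_right]
  have h3c : 3 ∣ Nat.card ↥C := by
    by_contra hnd
    rw [Nat.factorization_eq_zero_of_not_dvd hnd] at h3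
    exact absurd h3 (by norm_num)
  have h5c : 5 ∣ Nat.card ↥C := by
    by_contra hnd
    rw [Nat.factorization_eq_zero_of_not_dvd hnd] at h5
    exact absurd h5 (by norm_num)
  have h3k : ¬ 3 ∣ C.index := fun h =>
    absurd (Nat.eq_one_of_dvd_coprimes hcop h3c h) (by norm_num)
  have h5k : ¬ 5 ∣ C.index := fun h =>
    absurd (Nat.eq_one_of_dvd_coprimes hcop h5c h) (by norm_num)
  have hNcard : Nat.card ↥N = C.index := by
    rw [← hker, ← hN]
    rfl
  refine ⟨?_, ?_, ?_⟩
  · rw [← hcard, Nat.factorization_mul hc0 hk0, Finsupp.add_apply, h3,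
      Nat.factorization_eq_zero_of_not_dvd h3k]
  · rw [← hcard, Nat.factorization_mul hc0 hk0, Finsupp.add_apply, h5,
      Nat.factorization_eq_zero_of_not_dvd h5k]
  · intro x hx
    by_cases hxN : x ∈ N
    · have h1 : orderOf x ∣ Nat.card ↥N := Subgroup.orderOf_dvd_natCard N hxN
      rw [hx, hNcard] at h1
      exact h3k (Dvd.dvd.trans (by norm_num) h1)
    · have hxK : x ∉ Cfsg.frobeniusKernel C := by
        rw [← hN]
        exact hxN
      have hex : ∃ g : X, x ∈ MulAut.conj g • C := by
        by_contra hne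
        apply hxK
        right
        intro g hg
        exact hne ⟨g, hg⟩
      obtain ⟨g, hg⟩ := hex
      obtain ⟨y, hy, hyx⟩ := Subgroup.mem_smul_pointwise_iff_exists x (MulAut.conj g) C |>.1 hg
      have hord : orderOf y = orderOf x := by
        rw [← hyx]
        exact (MulEquiv.orderOf_eq (MulAut.conj g) y).symm
      apply h15 ⟨y, hy⟩
      rw [Subgroup.orderOf_mk, hord, hx]

end Cfsg.Agent.Lib.Helper46.FTNSC
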