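import Mathlib
import Cfsg.Agent.Lib.Helper40.HPStmt
import Cfsg.Agent.Lib.Helper21.TPTSHALF

/-!
# S5974 piece NEGSQNOHYP (helper46)

`q ≡ 3 (mod 4)`, `m ≡ 2 (mod 4)`: an isometry `x` with `x * x = -1` stabilises no hyperbolic
`m`-space.

Route (no Gram determinant of `W`): let `U ≤ W` be totally singular of dimension `m / 2`,
`T = x`.  `U₀ = U ⊓ T U` is `T`-invariant, so of even dimension (`det (T|U₀)² = (-1)^dim`, and `-1`
is not a square).  On a complement `U₁` of `U₀` in `U` the form `(u, v) ↦ β(u, T v)` is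
skew-symmetric and nondegenerate (a vector `u` of its radical is orthogonal to `T U`, so
`T U + ⟨u⟩` is totally singular, hence `u ∈ T U` by TSHALF), so `dim U₁` is even.  Hence `m / 2` is
even.
-/

set_option autoImplicit false

universe u

open scoped Matrix

namespace Cfsg.Agent.Lib.Helper46.HPNEGSQNOHYP

open Cfsg.Agent.Lib.Helper40.HPStmt
open Cfsg.Agent.Lib.Helper94.OPStmt (P NDegP StabP)
open QuadraticMap

section abstract

variable {F : Type u} [Field F] {V : Type u} [AddCommGroup V] [Module F V] [FiniteDimensional F V]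

/-- an invariant subspace of an operator of square `-1` has even dimension if `-1` is not a
square -/
theorem even_of_invariant (hns : ¬ IsSquare (-1 : F)) (T : V →ₗ[F] V) (hTT : ∀ v, T (T v) = -v)
    (Y : Submodule F V) (hY : ∀ v ∈ Y, T v ∈ Y) : Even (Module.finrank F ↥Y) := by
  by_contra hodd
  rw [Nat.not_even_iff_odd] at hodd
  apply hns
  have h1 : (T.restrict hY) ∘ₗ (T.restrict hY) = (-1 : F) • LinearMap.id := by
    apply LinearMap.ext
    intro v
    apply Subtype.ext
    simp only [LinearMap.comp_apply, LinearMap.coe_restrict_apply, LinearMap.smul_apply,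
      LinearMap.id_apply, hTT, neg_smul, one_smul, Submodule.coe_neg]
  have h2 := congrArg LinearMap.det h1
  rw [LinearMap.det_comp, LinearMap.det_smul, LinearMap.det_id, mul_one, hodd.neg_one_pow] at h2
  exact ⟨_, h2.symm⟩

theorem even_half (h2 : (2 : F) ≠ 0) (hns : ¬ IsSquare (-1 : F)) (Q : QuadraticForm F V)
    (T : V →ₗ[F] V) (hTT : ∀ v, T (T v) = -v) (hQ : ∀ v, Q (T v) = Q v)
    (W U : Submodule F V) (hUW : U ≤ W) (hTW : ∀ v ∈ W, T v ∈ W) (hU0 : ∀ u ∈ U, Q u = 0)
    (hhalf : ∀ U' : Submodule F V, U' ≤ W → (∀ u ∈ U', Q u = 0) →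
      Module.finrank F ↥U' ≤ Module.finrank F ↥U) :
    Even (Module.finrank F ↥U) := by
  classical
  -- basic identities
  have hc : ∀ a b : V, polar Q (T a) (T b) = polar Q a b := by
    intro a b
    unfold polar
    rw [← map_add, hQ, hQ, hQ]
  have hskew : ∀ a b : V, polar Q a (T b) = -polar Q b (T a) := by
    intro a b
    rw [← hc a (T b), hTT, polar_neg_right, polar_comm]
  have hts : ∀ a ∈ U, ∀ b ∈ U, polar Q a b = 0 := by
    intro a ha b hb
    unfold polar
    rw [hU0 _ (U.add_mem ha hb), hU0 _ ha, hU0 _ hb]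
    simp
  have hTinj : Function.Injective T := by
    intro a b hab
    have := congrArg T hab
    rw [hTT, hTT] at this
    exact neg_injective this
  -- `U₀`
  have hU₀inv : ∀ v ∈ U ⊓ U.map T, T v ∈ U ⊓ U.map T := by
    rintro v ⟨hv1, u', hu', rfl⟩
    refine ⟨?_, Submodule.mem_map_of_mem hv1⟩
    rw [hTT]
    exact U.neg_mem hu'
  have hev0 : Even (Module.finrank F ↥(U ⊓ U.map T)) :=
    even_of_invariant hns T hTT _ hU₀inv
  -- a complement `U₁` of `U₀` in `U`
  obtain ⟨C, hC⟩ := Submodule.exists_isCompl (U ⊓ U.map T)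
  have hdisj : (U ⊓ U.map T) ⊓ (C ⊓ U) = ⊥ := by
    rw [eq_bot_iff, ← hC.inf_eq_bot]
    exact inf_le_inf_left _ inf_le_left
  have hsup : (U ⊓ U.map T) ⊔ (C ⊓ U) = U := by
    rw [← sup_inf_assoc_of_le C (inf_le_left : U ⊓ U.map T ≤ U), hC.sup_eq_top, top_inf_eq]
  have hfr : Module.finrank F ↥U =
      Module.finrank F ↥(U ⊓ U.map T) + Module.finrank F ↥(C ⊓ U) := by
    have h := Submodule.finrank_sup_add_finrank_inf_eq (U ⊓ U.map T) (C ⊓ U)
    rw [hsup, hdisj, finrank_bot, add_zero] at h
    exact h
  -- the skew Gram matrix on `U₁`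
  have hev1 : Even (Module.finrank F ↥(C ⊓ U)) := by
    set b := Module.finBasis F ↥(C ⊓ U) with hb
    set G : Matrix (Fin (Module.finrank F ↥(C ⊓ U))) (Fin (Module.finrank F ↥(C ⊓ U))) F :=
      Matrix.of fun i j => polar Q (b i : V) (T (b j : V)) with hG
    have hGt : Gᵀ = -G := by
      ext i j
      simp only [hG, Matrix.transpose_apply, Matrix.of_apply, Matrix.neg_apply]
      exact hskew _ _
    have hdet : G.det ≠ 0 := by
      intro h0
      obtain ⟨c, hc0, hcG⟩ := Matrix.exists_mulVec_eq_zero_iff.2 h0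
      -- the vector `u`
      have hu1ne : (∑ j, c j • b j) ≠ 0 := by
        intro h
        apply hc0
        funext j
        exact Fintype.linearIndependent_iff.1 b.linearIndependent c h j
      have hu1mem : ((∑ j, c j • b j : ↥(C ⊓ U)) : V) ∈ C ⊓ U := (∑ j, c j • b j).2
      have hucoe : ((∑ j, c j • b j : ↥(C ⊓ U)) : V) = ∑ j, c j • (b j : V) := by
        simp
      -- `β (b i) (T u) = 0`
      have hrow : ∀ i, polar Q (b i : V) (T (∑ j, c j • (b j : V))) = 0 := by
        intro i
        have h1 : polar Q (b i : V) (T (∑ j, c j • (b j : V))) =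
            ∑ j, c j * polar Q (b i : V) (T (b j : V)) := by
          have := map_sum ((polarBilin Q (b i : V)) ∘ₗ T) (fun j => c j • (b j : V)) Finset.univ
          simp only [LinearMap.comp_apply, polarBilin_apply_apply, map_smul, smul_eq_mul] at this
          exact this
        rw [h1]
        have h3 := congrFun hcG i
        simp only [Matrix.mulVec, dotProduct, hG, Matrix.of_apply, Pi.zero_apply] at h3
        rw [← h3]
        exact Finset.sum_congr rfl fun j _ => mul_comm _ _
      -- `β v (T u) = 0` for `v ∈ U₁`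
      have hall : ∀ v ∈ C ⊓ U, polar Q v (T (∑ j, c j • (b j : V))) = 0 := by
        intro v hv
        have hM : ((polarBilin Q).flip (T (∑ j, c j • (b j : V)))) ∘ₗ (C ⊓ U).subtype = 0 := by
          apply b.ext
          intro i
          simp only [LinearMap.comp_apply, Submodule.subtype_apply, LinearMap.flip_apply,
            polarBilin_apply_apply, LinearMap.zero_apply]
          exact hrow i
        have := congrArg (fun f => f ⟨v, hv⟩) hM
        simpa only [LinearMap.comp_apply, Submodule.subtype_apply, LinearMap.flip_apply,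
          polarBilin_apply_apply, LinearMap.zero_apply] using this
      have huU : (∑ j, c j • (b j : V)) ∈ U := by
        rw [← hucoe]
        exact hu1mem.2
      -- `β u (T v) = 0` for `v ∈ U`
      have hperp : ∀ v ∈ U, polar Q (∑ j, c j • (b j : V)) (T v) = 0 := by
        intro v hv
        rw [← hsup] at hv
        obtain ⟨v₀, hv₀, v₁, hv₁, rfl⟩ := Submodule.mem_sup.1 hv
        rw [map_add, polar_add_right, hts _ huU _ (hU₀inv v₀ hv₀).1, zero_add, hskew,
          hall v₁ hv₁, neg_zero]
      -- `T U + ⟨u⟩` is totally singular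
      have hU'W : U.map T ⊔ Submodule.span F {∑ j, c j • (b j : V)} ≤ W := by
        apply sup_le
        · rintro _ ⟨v, hv, rfl⟩
          exact hTW v (hUW hv)
        · rw [Submodule.span_singleton_le_iff_mem]
          exact hUW huU
      have hU'0 : ∀ w ∈ U.map T ⊔ Submodule.span F {∑ j, c j • (b j : V)}, Q w = 0 := by
        intro w hw
        obtain ⟨y, hy, z, hz, rfl⟩ := Submodule.mem_sup.1 hw
        obtain ⟨v, hv, rfl⟩ := hy
        obtain ⟨a, rfl⟩ := Submodule.mem_span_singleton.1 hz
        rw [QuadraticMap.map_add Q, hQ, hU0 v hv, QuadraticMap.map_smul Q, hU0 _ huU,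
          polar_smul_right, polar_comm, hperp v hv]
        simp
      have hle := hhalf _ hU'W hU'0
      have hmapfr : Module.finrank F ↥(U.map T) = Module.finrank F ↥U :=
        (Submodule.equivMapOfInjective T hTinj U).finrank_eq.symm
      have heq : U.map T = U.map T ⊔ Submodule.span F {∑ j, c j • (b j : V)} :=
        Submodule.eq_of_le_of_finrank_le le_sup_left (by rw [hmapfr]; exact hle)
      have humap : (∑ j, c j • (b j : V)) ∈ U.map T := by
        rw [heq]
        exact Submodule.mem_sup_right (Submodule.mem_span_singleton_self _)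
      have hbot : (∑ j, c j • (b j : V)) ∈ (U ⊓ U.map T) ⊓ (C ⊓ U) := by
        refine ⟨⟨huU, humap⟩, ?_⟩
        rw [← hucoe]
        exact hu1mem
      rw [hdisj, Submodule.mem_bot] at hbot
      apply hu1ne
      apply Subtype.ext
      rw [hucoe, hbot]
      rfl
    by_contra hodd
    rw [Nat.not_even_iff_odd] at hodd
    have h1 : G.det = -G.det := by
      conv_lhs => rw [← Matrix.det_transpose, hGt, Matrix.det_neg, Fintype.card_fin,
        hodd.neg_one_pow]
      ring
    have h3 : (2 : F) * G.det = 0 := by linear_combination h1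
    rcases mul_eq_zero.1 h3 with h | h
    · exact h2 h
    · exact hdet h
  rw [hfr]
  exact hev0.add hev1

end abstract

theorem main : NegSqNoHyp.{u} := by
  intro F _ _ hq d m hm x hx hxx W hW hst
  classical
  have hns : ¬ IsSquare (-1 : F) := by
    rw [FiniteField.isSquare_neg_one_iff]
    omega
  have h2 : (2 : F) ≠ 0 := by
    intro h
    apply hns
    refine ⟨1, ?_⟩
    linear_combination -h
  obtain ⟨hfin, hnd, hplus⟩ := (hypJ_iff d m W).1 hW
  obtain ⟨hWm, -, U, hUW, hUm, hU0⟩ := hW
  have hTT : ∀ v : P d → F, Matrix.toLin' (x : Matrix (P d) (P d) F)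
      (Matrix.toLin' (x : Matrix (P d) (P d) F) v) = -v := by
    intro v
    rw [Matrix.toLin'_apply, Matrix.toLin'_apply, Matrix.mulVec_mulVec, hxx, Matrix.neg_mulVec,
      Matrix.one_mulVec]
  have hQ : ∀ v : P d → F, Cfsg.Agent.Lib.Helper44.NegPairs.plusQ d F
      (Matrix.toLin' (x : Matrix (P d) (P d) F) v) =
      Cfsg.Agent.Lib.Helper44.NegPairs.plusQ d F v := by
    intro v
    rw [Matrix.toLin'_apply]
    exact hx v v
  have hev := even_half h2 hns (Cfsg.Agent.Lib.Helper44.NegPairs.plusQ d F)
    (Matrix.toLin' (x : Matrix (P d) (P d) F)) hTT hQ W U hUW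
    (fun v hv => hst (Submodule.mem_map_of_mem hv)) hU0
    (fun U' hU'W hU'0 => by
      have h1 : 2 * Module.finrank F ↥U' ≤ Module.finrank F ↥W :=
        Cfsg.Agent.Lib.Helper21.TPTSHALF.main F d W U' hnd hU'W hU'0
      have h3 : Module.finrank F ↥U' ≤ Module.finrank F ↥U := by omega
      exact h3)
  obtain ⟨k, hk⟩ := hev
  have hk' : Module.finrank F ↥U = k + k := hk
  omega

end Cfsg.Agent.Lib.Helper46.HPNEGSQNOHYP
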