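import Mathlib
import Cfsg.Agent.Lib.Lead.OrdTypeStmt

/-!
# S3998 piece CNTSYL (second seat, helper46)

If `p` is the largest prime of `|X|` and the Sylow `p`-subgroup `P` is normal, then the `p`-rough
elements of `X` are exactly the elements of `P`.
-/

set_option autoImplicit false

namespace Cfsg.Agent.Lib.Helper46.OTCNTSYL

open Cfsg.Agent.Lib.Lead.OrdTypeStmt

universe u

theorem rough_eq {X : Type u} [Group X] [Finite X] (p : ℕ) [Fact p.Prime]
    (hmax : ∀ q : ℕ, q.Prime → q ∣ Nat.card X → q ≤ p) (P : Sylow p X)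
    (hP : (P : Subgroup X).Normal) : rough X p = ((P : Subgroup X) : Set X) := by
  have hp : p.Prime := Fact.out
  ext x
  simp only [rough, Set.mem_setOf_eq, SetLike.mem_coe]
  constructor
  · intro h
    have hox : orderOf x ≠ 0 := (orderOf_pos x).ne'
    have hpow : orderOf x = p ^ (orderOf x).primeFactorsList.length := by
      apply Nat.eq_prime_pow_of_unique_prime_dvd hox
      intro d hd hdx
      exact le_antisymm (hmax d hd (hdx.trans (orderOf_dvd_natCard x))) (h d hd hdx)
    have hx : IsPGroup p (Subgroup.zpowers x) := by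
      apply IsPGroup.of_card (n := (orderOf x).primeFactorsList.length)
      rw [Nat.card_zpowers]
      exact hpow
    obtain ⟨Q, hQ⟩ := hx.exists_le_sylow
    have hQP : Q = P := by
      haveI := Sylow.unique_of_normal P hP
      exact Subsingleton.elim Q P
    rw [← hQP]
    exact hQ (Subgroup.mem_zpowers x)
  · intro hx q hq hqx
    obtain ⟨k, hk⟩ := P.isPGroup' ⟨x, hx⟩
    have hk' : x ^ p ^ k = 1 := by
      have := congrArg Subtype.val hk
      simpa using this
    have h1 : q ∣ p ^ k := hqx.trans (orderOf_dvd_of_pow_eq_one hk')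
    have h2 : q ∣ p := hq.dvd_of_dvd_pow h1
    exact ((Nat.prime_dvd_prime_iff_eq hq hp).1 h2).ge

theorem main : CntSyl.{u} := by
  intro X _ _ p _ hmax P hP
  unfold cnt
  rw [rough_eq p hmax P hP]
  rfl

end Cfsg.Agent.Lib.Helper46.OTCNTSYL
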