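import Mathlib
import Cfsg.Agent.Lib.Helper46.PsuStmt

set_option autoImplicit false

/-!
# Assembly for S5172 from the piece statements of `PsuStmt`
-/

namespace Cfsg.Agent.Lib.Helper46.PsuAsm

open Matrix Cfsg.Agent.Lib.Helper43.SUBase Cfsg.Agent.H84.PslDefs
  Cfsg.Agent.Lib.Helper46.PsuDefs Cfsg.Agent.Lib.Helper46.PsuStmt
open Cfsg.Agent.Lib.Helper52.SpStmt (CritData Crit MapConj)

universe u

theorem dataAll (hsy : DataSylow.{u}) (hne : DataNe.{u}) (hcl : DataClosed.{u})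
    (hrad : DataRad.{u}) (hcent : DataCent.{u}) (hopp : DataOpp.{u}) (hng : DataNormGen.{u}) :
    DataAll.{u} := by
  intro n K _ _ p _ _ q D hn
  refine ⟨hsy n K p q D hn, ?_⟩
  exact
    { ne_bot := hne n K q D hn
      closed := hcl n K p q D hn
      rad_le := fun R hR => (hrad n K q D hn R hR).1
      rad_normal := fun R hR => (hrad n K q D hn R hR).2
      rad_cent := hcent n K q D hn
      rad_opp := hopp n K q D hn
      norm_gen := hng n K p q D hn }

theorem goal (hwb : WittBasis.{u}) (hwi : WittIsoOfBasis.{u}) (hmeq : MapEquiv.{u})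
    (hmap : MapConj.{u}) (hcrit : Crit.{u}) (hfin : Final.{u})
    (hz0 : CenterScalar.{u}) (hz1 : ScalarOne.{u}) (hnu : NormU.{u}) (hud : UpperDecomp.{u})
    (hdb : DiagBasic.{u}) (hnt : UJNontrivial.{u}) (hnl : NormalLam.{u})
    (hclj : ClosedJ.{u}) (hcw : CentW.{u}) (hcr : CentC.{u}) (hiw : IntW.{u}) (hic : IntC.{u})
    (htg : TorGen.{u}) (hth : TorH.{u}) (htce : TorCEven.{u}) (htco : TorCOdd.{u})
    (hsyl : SylowOfNormPow.{u})
    (hlcp : LiftConjOfParts.{u}) (hdnep : DataNeOfParts.{u}) (hdclp : DataClosedOfParts.{u})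
    (hdrnp : DataRadOfParts.{u}) (hdctp : DataCentOfParts.{u}) (hdopp : DataOppOfParts.{u})
    (hnbp : NormBorelOfParts.{u}) (hdsyp : DataSylowOfParts.{u}) (hdtop : DataTorusOfParts.{u})
    (hdngp : DataNormGenOfParts.{u}) : Goal.{u} := by
  have hlc : LiftConj.{u} := hlcp hz0 hz1
  have hnb : NormBorel.{u} := hnbp hlc hnu hud
  have hrad : DataRad.{u} := hdrnp hnl
  have hto : DataTorus.{u} := hdtop hdb hnl htg hth htce htco
  have hall : DataAll.{u} :=
    dataAll (hdsyp hsyl hnb hdb) (hdnep hz0 hnt) (hdclp hclj) hrad (hdctp hz0 hz1 hcw hcr)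
      (hdopp hlc hnl hiw hic) (hdngp hnb hrad hto)
  intro K _ _ p q _ _ hK n hn S
  exact hfin (hwi hwb) hmeq hmap hcrit hall p q hK n hn S

end Cfsg.Agent.Lib.Helper46.PsuAsm
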