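import Mathlib
import Cfsg.Agent.Lib.Helper46.PsuStmt

set_option autoImplicit false

/-!
# Piece FIN of S5172: the statement from the data in the projective group of the J-model
-/

namespace Cfsg.Agent.Lib.Helper46.PsuFIN

open Matrix Cfsg.Agent.Lib.Helper43.SUBase Cfsg.Agent.H84.PslDefs
  Cfsg.Agent.Lib.Helper46.PsuDefs Cfsg.Agent.Lib.Helper46.PsuStmt
open Cfsg.Agent.Lib.Helper52.SpStmt (CritData Crit MapConj)

universe u

theorem center_map {G H : Type*} [Group G] [Group H] (e : G ≃* H) :
    (Subgroup.center G).map e.toMonoidHom = Subgroup.center H := by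
  ext x
  constructor
  · rintro ⟨z, hz, rfl⟩
    have hz' : z ∈ Subgroup.center G := hz
    rw [Subgroup.mem_center_iff] at hz' ⊢
    have hz := hz'
    intro y
    obtain ⟨y', rfl⟩ := e.surjective y
    show e y' * e z = e z * e y'
    rw [← map_mul, ← map_mul, hz y']
  · intro hx
    rw [Subgroup.mem_center_iff] at hx
    refine ⟨e.symm x, ?_, e.apply_symm_apply x⟩
    show e.symm x ∈ Subgroup.center G
    rw [Subgroup.mem_center_iff]
    intro y
    apply e.injective
    rw [map_mul, map_mul, e.apply_symm_apply]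
    exact hx (e y)

theorem finite_SL (n : ℕ) (K : Type u) [Field K] [Fintype K] :
    Finite (SpecialLinearGroup (Fin n) K) :=
  Finite.of_injective (fun g : SpecialLinearGroup (Fin n) K => (g : Matrix (Fin n) (Fin n) K))
    Subtype.val_injective

theorem main : Final.{u} := by
  intro hwi hmeq hmap hcrit hall K _ _ p q _ _ hK n hn S
  classical
  have := finite_SL n K
  obtain ⟨e0⟩ := hwi n K q (qd hK)
  obtain ⟨⟨P, hP⟩, hdata⟩ := hall n K p q (qd hK) hn
  let E : PGJ (qd hK) n ≃* Cfsg.PSU n K q :=
    QuotientGroup.congr (Subgroup.center ↥(GJ (qd hK) n)) (Subgroup.center ↥(Cfsg.SU n K q))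
      e0.symm (center_map e0.symm)
  have hd2 := hmeq E hdata
  have hle : (S : Subgroup (Cfsg.PSU n K q)) ≤ E.toMonoidHom.range := by
    intro x _
    exact ⟨E.symm x, E.apply_symm_apply x⟩
  let S1 : Sylow p (PGJ (qd hK) n) := S.comapOfInjective E.toMonoidHom E.injective hle
  obtain ⟨g, hg⟩ := MulAction.exists_smul_eq (PGJ (qd hK) n) P S1
  have h1 : (S : Subgroup (Cfsg.PSU n K q)) =
      ((Ubar (qd hK) n).map E.toMonoidHom).map (MulAut.conj (E g)).toMonoidHom := by
    have hS1 : (S1 : Subgroup (PGJ (qd hK) n)) =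
        (S : Subgroup (Cfsg.PSU n K q)).comap E.toMonoidHom :=
      Sylow.coe_comapOfInjective S E.toMonoidHom E.injective hle
    have hgP : (S1 : Subgroup (PGJ (qd hK) n)) =
        (Ubar (qd hK) n).map (MulAut.conj g).toMonoidHom := by
      rw [← hg, ← hP]
      rfl
    have h3 : (S : Subgroup (Cfsg.PSU n K q)) =
        ((S : Subgroup (Cfsg.PSU n K q)).comap E.toMonoidHom).map E.toMonoidHom :=
      (Subgroup.map_comap_eq_self_of_surjective E.surjective _).symm
    rw [h3, ← hS1, hgP, Subgroup.map_map, Subgroup.map_map]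
    congr 1
    ext x
    simp
  have h2 := hmap hd2 (E g)
  rw [← h1] at h2
  exact hcrit p S _ h2

end Cfsg.Agent.Lib.Helper46.PsuFIN
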