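import Mathlib
import Cfsg.Agent.Lib.Helper46.PsuStmt
import Cfsg.Agent.Lib.Helper52.PslP7c
import Cfsg.Agent.Lib.Helper91.PsuTH

set_option autoImplicit false
set_option linter.unusedSectionVars false

/-!
# Piece TCE of S5172: the central torus for even `n`
-/

namespace Cfsg.Agent.Lib.Helper46.PsuTCE

open Matrix Cfsg.Agent.Lib.Helper43.SUBase Cfsg.Agent.H84.PslDefs
  Cfsg.Agent.Lib.Helper46.PsuDefs Cfsg.Agent.Lib.Helper46.PsuStmt
open Cfsg.Agent.Lib.Helper52.PslP7c (G G_diag G_one x_mul y_mul)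
open Cfsg.Agent.Lib.Helper91.PsuTH (G_congr tv_pow)

universe u

variable {n : ℕ} {K : Type u} [Field K] {q : ℕ} (D : QD K q)

/-- a transvection `1 + c E_{k k'}` with `k' = rev k ≠ k`, `c` skew, lies in `GJ` -/
theorem tv_mem_GJ (k k' : Fin n) (hkk' : k ≠ k') (hrev : Fin.rev k = k') (c : K)
    (hc : D.φ c = -c) : SpecialLinearGroup.transvection hkk' c ∈ GJ D n := by
  have hrev' : Fin.rev k' = k := by rw [← hrev, Fin.rev_rev]
  rw [mem_GJ]
  show adjJ D n (Matrix.transvection k k' c) * Matrix.transvection k k' c = 1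
  rw [Matrix.transvection, adjJ_add, adjJ_one, adjJ_single, hrev, hrev', hc, Matrix.add_mul,
    Matrix.one_mul, Matrix.mul_add, Matrix.mul_one,
    Matrix.single_mul_single_of_ne _ _ _ _ (Ne.symm hkk'), add_zero, add_assoc,
    ← Matrix.single_add, add_neg_cancel, Matrix.single_zero, add_zero]

theorem tv_block (lam : Fin n → ℤ) (k k' : Fin n) (hkk' : k ≠ k') (hl : lam k = lam k') (c : K)
    (i j : Fin n) (hij : lam i < lam j) :
    (SpecialLinearGroup.transvection hkk' c) i j = 0 := by
  show Matrix.transvection k k' c i j = 0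
  have hne : i ≠ j := fun h => by rw [h] at hij; exact lt_irrefl _ hij
  rw [Matrix.transvection, Matrix.add_apply, Matrix.one_apply_ne hne, zero_add,
    Matrix.single_apply, if_neg]
  rintro ⟨rfl, rfl⟩
  rw [hl] at hij
  exact lt_irrefl _ hij

theorem tv_pow_p (p : ℕ) [CharP K p] (k k' : Fin n) (hkk' : k ≠ k') (c : K) :
    (SpecialLinearGroup.transvection hkk' c) ^ (p ^ 1) = 1 := by
  apply Subtype.ext
  rw [pow_one, Matrix.SpecialLinearGroup.coe_pow]
  show (Matrix.transvection k k' c) ^ p = 1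
  rw [tv_pow k k' hkk', CharP.cast_eq_zero, zero_mul, Matrix.transvection_zero]

theorem main : TorCEven.{u} := by
  intro n K _ _ p _ _ q D hn hpar a ha hdiag htor
  classical
  have hk1 : n / 2 - 1 < n := by omega
  have hk2 : n / 2 < n := by omega
  obtain ⟨k, hk⟩ : ∃ k : Fin n, k.val = n / 2 - 1 := ⟨⟨n / 2 - 1, hk1⟩, rfl⟩
  obtain ⟨k', hk'⟩ : ∃ k' : Fin n, k'.val = n / 2 := ⟨⟨n / 2, hk2⟩, rfl⟩
  have hkk' : k ≠ k' := by
    intro h
    have := congrArg Fin.val h
    omega
  have hrev : Fin.rev k = k' := by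
    apply Fin.ext
    rw [Fin.val_rev, hk, hk']
    omega
  have hlam : lamC n k = lamC n k' := by
    simp only [lamC, hk, hk']
    split_ifs <;> omega
  have hone : ∀ l : Fin n, l ≠ k → l ≠ k' → a l l = 1 := by
    intro l h1 h2
    apply htor
    have e1 : l.val ≠ n / 2 - 1 := fun h => h1 (Fin.ext (h.trans hk.symm))
    have e2 : l.val ≠ n / 2 := fun h => h2 (Fin.ext (h.trans hk'.symm))
    omega
  have hmat : (a : Matrix (Fin n) (Fin n) K) = Matrix.diagonal (fun l => a l l) := by
    ext i j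
    by_cases h : i = j
    · subst h; rw [Matrix.diagonal_apply_eq]
    · rw [Matrix.diagonal_apply_ne _ h]; exact hdiag i j h
  have hdet : a k k * a k' k' = 1 := by
    have h1 : (a : Matrix (Fin n) (Fin n) K).det = 1 := a.2
    rw [hmat, Matrix.det_diagonal,
      Finset.prod_eq_mul k k' hkk' (fun l _ hl => hone l hl.1 hl.2)
        (fun h => absurd (Finset.mem_univ _) h) (fun h => absurd (Finset.mem_univ _) h)] at h1
    exact h1
  have huni : D.φ (a k' k') * a k k = 1 := by
    have h1 := (mem_GJ_iff_entries D n a).1 ha k k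
    rw [Finset.sum_eq_single k, hrev, if_pos rfl] at h1
    · exact h1
    · intro l _ hl
      rw [hdiag l k hl, mul_zero]
    · intro h; exact absurd (Finset.mem_univ _) h
  have hl0 : a k k ≠ 0 := fun h => by rw [h, zero_mul] at hdet; exact zero_ne_one hdet
  have hk'k' : a k' k' = (a k k)⁻¹ := eq_inv_of_mul_eq_one_right hdet
  have hfix : D.φ (a k k) = a k k := by
    rw [hk'k', map_inv₀] at huni
    have h2 : (D.φ (a k k))⁻¹ = (a k k)⁻¹ := eq_inv_of_mul_eq_one_left huni
    exact inv_injective h2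
  obtain ⟨s0, hs0, hs0φ⟩ := D.exists_skew
  set lam := a k k with hlamdef
  have hs : D.φ (lam * s0) = -(lam * s0) := by rw [map_mul, hfix, hs0φ]; ring
  have hsne : lam * s0 ≠ 0 := mul_ne_zero hl0 hs0
  have hsi : D.φ (-(lam * s0)⁻¹) = -(-(lam * s0)⁻¹) := by rw [map_neg, map_inv₀, hs, inv_neg]
  have hs0i : D.φ (s0⁻¹) = -(s0⁻¹) := by rw [map_inv₀, hs0φ, inv_neg]
  have hs0n : D.φ (-s0) = -(-s0) := by rw [map_neg, hs0φ]
  have hrev' : Fin.rev k' = k := by rw [← hrev, Fin.rev_rev]
  -- the generating set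
  have hX : ∀ c : K, D.φ c = -c → SpecialLinearGroup.transvection hkk' c ∈
      Subgroup.closure {g : SpecialLinearGroup (Fin n) K | g ∈ GJ D n ∧
        (∀ i j : Fin n, lamC n i < lamC n j → g i j = 0) ∧ ∃ e : ℕ, g ^ (p ^ e) = 1} :=
    fun c hc => Subgroup.subset_closure ⟨tv_mem_GJ D k k' hkk' hrev c hc,
      tv_block (lamC n) k k' hkk' hlam c, 1, tv_pow_p p k k' hkk' c⟩
  have hY : ∀ c : K, D.φ c = -c → SpecialLinearGroup.transvection (Ne.symm hkk') c ∈
      Subgroup.closure {g : SpecialLinearGroup (Fin n) K | g ∈ GJ D n ∧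
        (∀ i j : Fin n, lamC n i < lamC n j → g i j = 0) ∧ ∃ e : ℕ, g ^ (p ^ e) = 1} :=
    fun c hc => Subgroup.subset_closure ⟨tv_mem_GJ D k' k (Ne.symm hkk') hrev' c hc,
      tv_block (lamC n) k' k (Ne.symm hkk') hlam.symm c, 1, tv_pow_p p k' k (Ne.symm hkk') c⟩
  have hprod : a = SpecialLinearGroup.transvection hkk' (lam * s0) *
      (SpecialLinearGroup.transvection (Ne.symm hkk') (-(lam * s0)⁻¹) *
      (SpecialLinearGroup.transvection hkk' (lam * s0) *
      (SpecialLinearGroup.transvection hkk' (-s0) *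
      (SpecialLinearGroup.transvection (Ne.symm hkk') (s0⁻¹) *
        SpecialLinearGroup.transvection hkk' (-s0))))) := by
    apply Subtype.ext
    show (a : Matrix (Fin n) (Fin n) K) = Matrix.transvection k k' (lam * s0) *
      (Matrix.transvection k' k (-(lam * s0)⁻¹) * (Matrix.transvection k k' (lam * s0) *
      (Matrix.transvection k k' (-s0) * (Matrix.transvection k' k (s0⁻¹) *
        Matrix.transvection k k' (-s0)))))
    have e : Matrix.transvection k k' (lam * s0) *
        (Matrix.transvection k' k (-(lam * s0)⁻¹) * (Matrix.transvection k k' (lam * s0) *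
        (Matrix.transvection k k' (-s0) * (Matrix.transvection k' k (s0⁻¹) *
          Matrix.transvection k k' (-s0))))) =
        Matrix.transvection k k' (lam * s0) *
        (Matrix.transvection k' k (-(lam * s0)⁻¹) * (Matrix.transvection k k' (lam * s0) *
        (Matrix.transvection k k' (-s0) * (Matrix.transvection k' k (s0⁻¹) *
          (Matrix.transvection k k' (-s0) * G k k' (1 : K) 0 0 1))))) := by
      rw [G_one k k' hkk', Matrix.mul_one]
    rw [e, x_mul k k' hkk', y_mul k k' hkk', x_mul k k' hkk', x_mul k k' hkk', y_mul k k' hkk',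
      x_mul k k' hkk']
    have e2 : (a : Matrix (Fin n) (Fin n) K) = G k k' lam 0 0 lam⁻¹ := by
      rw [G_diag k k' hkk', hmat]
      congr 1
      funext r
      by_cases h1 : r = k
      · rw [if_pos h1, h1]
      · by_cases h2 : r = k'
        · rw [if_neg h1, if_pos h2, h2, hk'k']
        · rw [if_neg h1, if_neg h2, hone r h1 h2]
    rw [e2]
    refine G_congr k k' ?_ ?_ ?_ ?_ <;> field_simp <;> ring
  rw [hprod]
  exact Subgroup.mul_mem _ (hX _ hs) (Subgroup.mul_mem _ (hY _ hsi) (Subgroup.mul_mem _ (hX _ hs)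
    (Subgroup.mul_mem _ (hX _ hs0n) (Subgroup.mul_mem _ (hY _ hs0i) (hX _ hs0n)))))

end Cfsg.Agent.Lib.Helper46.PsuTCE
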