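import Mathlib
import Cfsg.Agent.Lib.Helper46.PsuStmt
import Cfsg.Agent.Lib.Helper46.SUModelU

set_option autoImplicit false
set_option linter.unusedSectionVars false

/-!
# Piece WB of S5172: a Witt basis of the standard hermitian space
-/

namespace Cfsg.Agent.Lib.Helper46.PsuWB

open Matrix Cfsg.Agent.Lib.Helper43.SUBase Cfsg.Agent.H84.PslDefs
  Cfsg.Agent.Lib.Helper46.PsuDefs Cfsg.Agent.Lib.Helper46.PsuStmt
  Cfsg.Agent.Lib.Helper46.SUModelU

universe u

variable {K : Type u} [Field K] {q : ℕ} (D : QD K q) {n : ℕ}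

/-- the Witt basis -/
def bvec (η s : K) (i : Fin n) : Fin n → K :=
  if i.val < n / 2 then (1 : K) • eps n K (2 * i.val) + η • eps n K (2 * i.val + 1)
  else if n - n / 2 ≤ i.val then
    s • eps n K (2 * (n - 1 - i.val)) + (-(D.φ s * η)) • eps n K (2 * (n - 1 - i.val) + 1)
  else eps n K (n - 1)

theorem rev_iff (i j : Fin n) : i = Fin.rev j ↔ i.val + j.val + 1 = n := by
  rw [Fin.ext_iff, Fin.val_rev]
  have := i.isLt
  have := j.isLt
  omega

theorem mid_right {a : ℕ} (h1 : 2 * a + 1 < n) (h2 : 2 * a ≠ n - 1) (h3 : 2 * a + 1 ≠ n - 1)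
    (x y : K) : D.h (x • eps n K (2 * a) + y • eps n K (2 * a + 1)) (eps n K (n - 1)) = 0 := by
  rw [D.h_add_left, D.h_smul_left, D.h_smul_left, eps_h D (by omega : 2 * a < n),
    eps_h D h1, if_neg h2, if_neg h3, mul_zero, mul_zero, add_zero]

theorem mid_left {a : ℕ} (hn : 0 < n) (h2 : 2 * a ≠ n - 1) (h3 : 2 * a + 1 ≠ n - 1)
    (x y : K) : D.h (eps n K (n - 1)) (x • eps n K (2 * a) + y • eps n K (2 * a + 1)) = 0 := by
  rw [D.h_add_right, D.h_smul_right, D.h_smul_right, eps_h D (by omega : n - 1 < n),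
    eps_h D (by omega : n - 1 < n), if_neg (Ne.symm h2), if_neg (Ne.symm h3), mul_zero,
    mul_zero, add_zero]

theorem gram (η s : K) (hη : η * D.φ η = -1) (hs : s + D.φ s = 1) (i j : Fin n) :
    D.h (bvec D η s i) (bvec D η s j) = if i = Fin.rev j then 1 else 0 := by
  have hi := i.isLt
  have hj := j.isLt
  have hrev := rev_iff i j
  unfold bvec
  split_ifs with h1 h2 h3 h4 h5 h6 h7 h8 h9 h10 h11 h12 h13 h14 h15 h16
  all_goals first
    | (exfalso; omega)
    | (rw [gram4 D (by omega)]
       split_ifs with hc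
       all_goals first
         | (exfalso; omega)
         | (simp only [map_one, map_neg, map_mul, D.inv]
            first
              | linear_combination hη
              | linear_combination hs - s * hη
              | linear_combination hs - D.φ s * hη
              | linear_combination (s * D.φ s) * hη
              | linear_combination (-(s * D.φ s)) * hη)
         | rfl)
    | (rw [mid_right D (by omega) (by omega) (by omega)])
    | (rw [mid_left D (by omega) (by omega) (by omega)])
    | (rw [eps_h D (by omega), if_pos rfl])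

theorem main : WittBasis.{u} := by
  intro n K _ _ q D
  obtain ⟨η, hη⟩ := D.nm (-1) (by rw [map_neg, map_one])
  obtain ⟨s, hs⟩ := D.tr 1 (map_one _)
  refine ⟨Matrix.of fun k i => bvec D η s i k, fun i j => ?_⟩
  rw [← gram D η s hη hs i j, D.h_eq]
  rfl

end Cfsg.Agent.Lib.Helper46.PsuWB
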