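import Mathlib
import Cfsg.Agent.Lib.Helper46.PsuStmt
import Cfsg.Agent.Lib.Helper40.HermAdj
import Cfsg.Agent.Lib.Helper5.SUBasic

set_option autoImplicit false
set_option linter.unusedSectionVars false

/-!
# Piece WIP of S5172: the Witt isomorphism `Cfsg.SU n K q ≃* GJ D n` from a Witt basis
-/

namespace Cfsg.Agent.Lib.Helper46.PsuWIP

open Matrix Cfsg.Agent.Lib.Helper43.SUBase Cfsg.Agent.H84.PslDefs
  Cfsg.Agent.Lib.Helper46.PsuDefs Cfsg.Agent.Lib.Helper46.PsuStmt
  Cfsg.Agent.Lib.Helper40.HermAdj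

universe u

variable {K : Type u} [Field K] {q : ℕ} (D : QD K q) {n : ℕ}

/-- the antidiagonal matrix -/
def Jm (n : ℕ) (K : Type u) [Field K] : Matrix (Fin n) (Fin n) K :=
  Matrix.of fun i j => if i = Fin.rev j then 1 else 0

theorem Jm_apply (i j : Fin n) : Jm n K i j = if i = Fin.rev j then 1 else 0 := rfl

theorem Jm_mul (A : Matrix (Fin n) (Fin n) K) (i j : Fin n) : (Jm n K * A) i j = A (Fin.rev i) j := by
  rw [Matrix.mul_apply, Finset.sum_eq_single (Fin.rev i)]
  · rw [Jm_apply, Fin.rev_rev, if_pos rfl, one_mul]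
  · intro k _ hk
    rw [Jm_apply, if_neg, zero_mul]
    intro h
    exact hk (by rw [h, Fin.rev_rev])
  · intro h; exact absurd (Finset.mem_univ _) h

theorem mul_Jm (A : Matrix (Fin n) (Fin n) K) (i j : Fin n) : (A * Jm n K) i j = A i (Fin.rev j) := by
  rw [Matrix.mul_apply, Finset.sum_eq_single (Fin.rev j)]
  · rw [Jm_apply, if_pos rfl, mul_one]
  · intro k _ hk
    rw [Jm_apply, if_neg hk, mul_zero]
  · intro h; exact absurd (Finset.mem_univ _) h

theorem Jm_mul_Jm : Jm n K * Jm n K = 1 := by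
  ext i j
  rw [Jm_mul, Jm_apply, Matrix.one_apply]
  by_cases h : i = j
  · rw [if_pos h, if_pos (by rw [h])]
  · rw [if_neg h, if_neg (fun h' => h (Fin.rev_inj.1 h'))]

theorem adjJ_eq (M : Matrix (Fin n) (Fin n) K) : adjJ D n M = Jm n K * adj D.φ M * Jm n K := by
  ext i j
  rw [mul_Jm, Jm_mul, adj_apply, adjJ_apply]

section iso

variable (E Ei : Matrix (Fin n) (Fin n) K) (h1 : E * Ei = 1) (h2 : Ei * E = 1)
  (hE : adj D.φ E * E = Jm n K)

include h1 h2 hE

theorem key : adj D.φ Ei * Jm n K * Ei = 1 := by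
  have e1 : adj D.φ Ei * adj D.φ E = 1 := by rw [← adj_mul, h1, adj_one]
  rw [← hE, Matrix.mul_assoc, Matrix.mul_assoc, h1, Matrix.mul_one, e1]

theorem fwd (g : Matrix (Fin n) (Fin n) K) (hg : adj D.φ g * g = 1) :
    adjJ D n (Ei * g * E) * (Ei * g * E) = 1 := by
  have hk := key D E Ei h1 h2 hE
  rw [adjJ_eq, adj_mul, adj_mul]
  calc Jm n K * (adj D.φ E * (adj D.φ g * adj D.φ Ei)) * Jm n K * (Ei * g * E)
      = Jm n K * (adj D.φ E * (adj D.φ g * ((adj D.φ Ei * Jm n K * Ei) * (g * E)))) := by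
        simp only [Matrix.mul_assoc]
    _ = Jm n K * (adj D.φ E * ((adj D.φ g * g) * E)) := by
        rw [hk, Matrix.one_mul, Matrix.mul_assoc]
    _ = 1 := by rw [hg, Matrix.one_mul, hE, Jm_mul_Jm]

theorem bwd (g : Matrix (Fin n) (Fin n) K) (hg : adjJ D n g * g = 1) :
    adj D.φ (E * g * Ei) * (E * g * Ei) = 1 := by
  have hk := key D E Ei h1 h2 hE
  have e1 : adj D.φ g * Jm n K * g = Jm n K := by
    rw [adjJ_eq] at hg
    calc adj D.φ g * Jm n K * g
        = (Jm n K * Jm n K) * (adj D.φ g * Jm n K * g) := by rw [Jm_mul_Jm, Matrix.one_mul]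
      _ = Jm n K * (Jm n K * adj D.φ g * Jm n K * g) := by simp only [Matrix.mul_assoc]
      _ = Jm n K := by rw [hg, Matrix.mul_one]
  rw [adj_mul, adj_mul]
  calc adj D.φ Ei * (adj D.φ g * adj D.φ E) * (E * g * Ei)
      = adj D.φ Ei * (adj D.φ g * (adj D.φ E * E) * g) * Ei := by
        simp only [Matrix.mul_assoc]
    _ = 1 := by rw [hE, e1, hk]

theorem det_conj1 (g : Matrix (Fin n) (Fin n) K) (hg : g.det = 1) : (Ei * g * E).det = 1 := by
  have := congrArg Matrix.det h2
  rw [Matrix.det_mul, Matrix.det_one] at this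
  rw [Matrix.det_mul, Matrix.det_mul, hg, mul_one, this]

theorem det_conj2 (g : Matrix (Fin n) (Fin n) K) (hg : g.det = 1) : (E * g * Ei).det = 1 := by
  have := congrArg Matrix.det h1
  rw [Matrix.det_mul, Matrix.det_one] at this
  rw [Matrix.det_mul, Matrix.det_mul, hg, mul_one, this]

/-- the isomorphism -/
def iso : ↥(Cfsg.SU n K q) ≃* ↥(GJ D n) where
  toFun g := ⟨⟨Ei * (g : SpecialLinearGroup (Fin n) K).1 * E,
      det_conj1 D E Ei h1 h2 hE _ (g : SpecialLinearGroup (Fin n) K).2⟩,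
    fwd D E Ei h1 h2 hE _ ((preserves_iff D.φ D.hφ _).mp
      ((Cfsg.Agent.Lib.Helper5.SUBasic.mem_SU_iff _).mp g.2))⟩
  invFun g := ⟨⟨E * (g : SpecialLinearGroup (Fin n) K).1 * Ei,
      det_conj2 D E Ei h1 h2 hE _ (g : SpecialLinearGroup (Fin n) K).2⟩,
    (Cfsg.Agent.Lib.Helper5.SUBasic.mem_SU_iff _).mpr ((preserves_iff D.φ D.hφ _).mpr
      (bwd D E Ei h1 h2 hE _ g.2))⟩
  left_inv g := by
    apply Subtype.ext
    apply Subtype.ext
    show E * (Ei * (g : SpecialLinearGroup (Fin n) K).1 * E) * Ei = (g : SpecialLinearGroup (Fin n) K).1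
    calc E * (Ei * (g : SpecialLinearGroup (Fin n) K).1 * E) * Ei
        = (E * Ei) * (g : SpecialLinearGroup (Fin n) K).1 * (E * Ei) := by
          simp only [Matrix.mul_assoc]
      _ = _ := by rw [h1, Matrix.one_mul, Matrix.mul_one]
  right_inv g := by
    apply Subtype.ext
    apply Subtype.ext
    show Ei * (E * (g : SpecialLinearGroup (Fin n) K).1 * Ei) * E = (g : SpecialLinearGroup (Fin n) K).1
    calc Ei * (E * (g : SpecialLinearGroup (Fin n) K).1 * Ei) * E
        = (Ei * E) * (g : SpecialLinearGroup (Fin n) K).1 * (Ei * E) := by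
          simp only [Matrix.mul_assoc]
      _ = _ := by rw [h2, Matrix.one_mul, Matrix.mul_one]
  map_mul' g g' := by
    apply Subtype.ext
    apply Subtype.ext
    show Ei * ((g : SpecialLinearGroup (Fin n) K).1 * (g' : SpecialLinearGroup (Fin n) K).1) * E =
      (Ei * (g : SpecialLinearGroup (Fin n) K).1 * E) * (Ei * (g' : SpecialLinearGroup (Fin n) K).1 * E)
    calc Ei * ((g : SpecialLinearGroup (Fin n) K).1 * (g' : SpecialLinearGroup (Fin n) K).1) * E
        = Ei * (g : SpecialLinearGroup (Fin n) K).1 * 1 * ((g' : SpecialLinearGroup (Fin n) K).1 * E) := by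
          simp only [Matrix.mul_assoc, Matrix.one_mul]
      _ = _ := by
          rw [← h1]
          simp only [Matrix.mul_assoc]

end iso

theorem main : WittIsoOfBasis.{u} := by
  intro hwb n K _ _ q D
  obtain ⟨E, hE⟩ := hwb n K q D
  have hE' : adj D.φ E * E = Jm n K := by
    ext i j
    rw [Matrix.mul_apply, Jm_apply]
    have := hE j i
    have e : (j = Fin.rev i) ↔ (i = Fin.rev j) :=
      ⟨fun h => by rw [h, Fin.rev_rev], fun h => by rw [h, Fin.rev_rev]⟩
    rw [← if_congr e rfl rfl, ← this]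
    apply Finset.sum_congr rfl
    intro k _
    rw [adj_apply, mul_comm]
  have hdet : IsUnit E.det := by
    have h1 := congrArg Matrix.det hE'
    have h2 := congrArg Matrix.det (Jm_mul_Jm (n := n) (K := K))
    rw [Matrix.det_mul, Matrix.det_one] at h2
    rw [Matrix.det_mul] at h1
    rw [isUnit_iff_ne_zero]
    intro h0
    rw [h0, mul_zero] at h1
    rw [← h1, mul_zero] at h2
    exact zero_ne_one h2
  exact ⟨iso D E E⁻¹ (Matrix.mul_nonsing_inv E hdet) (Matrix.nonsing_inv_mul E hdet) hE'⟩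

end Cfsg.Agent.Lib.Helper46.PsuWIP
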